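import Cfsg.Agent.Lib.PushUp.OddTransfer.Local
import Cfsg.Agent.Lib.ConjFunctor.EngelSection
import Cfsg.Agent.S2764

/-!
For odd `p` the functors attached to all characteristic subgroups together control transfer.
-/

set_option autoImplicit false
set_option linter.style.haveILetI false

namespace CfsgLib.PushUp.OddTransfer

open CfsgLib.ConjFunctor
open CfsgLib.ClassicalLinear CfsgLib.FFModules.SL2Pair
open scoped MatrixGroups commutatorElement IsMulCommutative

universe u

/-- All isomorphism-invariant functors on `p`-groups. -/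
def allFunctors (p : ℕ) : Set (∀ (Q : Type u) [Group Q], Subgroup Q) := {W | Cfsg.IsCharPFunctor.{u} p W}

theorem allFunctors_nonempty (p : ℕ) : (allFunctors.{u} p).Nonempty :=
  ⟨fun _ _ => ⊤, fun _ _ _ _ _ => top_ne_bot, fun _ _ _ _ _ _ φ =>
    Subgroup.map_top_of_surjective _ φ.surjective⟩

theorem allFunctors_spec (p : ℕ) : ∀ W ∈ allFunctors.{u} p, Cfsg.IsCharPFunctor.{u} p W := fun _ h => h

/-- A characteristic subgroup of one group, transported to the groups isomorphic to it. -/
noncomputable def functorOf {P : Type u} [Group P] (K : Subgroup P) (Q : Type u) [Group Q] : Subgroup Q :=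
  @dite (Subgroup Q) (Nonempty (P ≃* Q)) (Classical.propDecidable _)
    (fun h => K.map h.some.toMonoidHom) (fun _ => ⊤)

theorem functorOf_eq {P : Type u} [Group P] {K : Subgroup P} (hK : K.Characteristic) {Q : Type u} [Group Q]
    (e : P ≃* Q) : functorOf K Q = K.map e.toMonoidHom := by
  rw [functorOf, dif_pos ⟨e⟩]
  generalize (Nonempty.some ⟨e⟩ : P ≃* Q) = f
  have h := Subgroup.characteristic_iff_map_eq.1 hK (f.trans e.symm)
  calc K.map f.toMonoidHom = (K.map (f.trans e.symm).toMonoidHom).map e.toMonoidHom := by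
        rw [Subgroup.map_map]
        congr 1
        ext x
        simp
    _ = _ := by rw [h]

theorem functorOf_self {P : Type u} [Group P] {K : Subgroup P} (hK : K.Characteristic) :
    functorOf K P = K := by
  rw [functorOf_eq hK (MulEquiv.refl P)]
  exact K.map_id

theorem isCharPFunctor_functorOf {p : ℕ} {P : Type u} [Group P] {K : Subgroup P} (hK : K.Characteristic)
    (hne : K ≠ ⊥) : Cfsg.IsCharPFunctor.{u} p (fun Q _ => functorOf K Q) := by
  refine ⟨fun Q _ _ _ hQ => ?_, fun Q R _ _ _ _ φ => ?_⟩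
  · by_cases h : Nonempty (P ≃* Q)
    · obtain ⟨e⟩ := h
      show functorOf K Q ≠ ⊥
      rw [functorOf_eq hK e]
      exact fun h' => hne ((Subgroup.map_eq_bot_iff_of_injective _ e.injective).1 h')
    · show functorOf K Q ≠ ⊥
      rw [functorOf, dif_neg h]
      exact top_ne_bot
  · show (functorOf K Q).map φ.toMonoidHom = functorOf K R
    by_cases h : Nonempty (P ≃* Q)
    · obtain ⟨e⟩ := h
      rw [functorOf_eq hK e, functorOf_eq hK (e.trans φ), Subgroup.map_map]
      rfl
    · have h' : ¬ Nonempty (P ≃* R) := fun ⟨e⟩ => h ⟨e.trans φ.symm⟩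
      rw [functorOf, functorOf, dif_neg h, dif_neg h', Subgroup.map_top_of_surjective _ φ.surjective]

theorem characteristic_of_functor {p : ℕ} {W : ∀ (Q : Type u) [Group Q], Subgroup Q}
    (hW : Cfsg.IsCharPFunctor.{u} p W) (Q : Type u) [Group Q] [Finite Q] (hQ : IsPGroup p Q) :
    (W Q).Characteristic :=
  Subgroup.characteristic_iff_map_eq.2 fun φ => hW.2 Q Q hQ φ

variable {X : Type u} [Group X] {p : ℕ}

/-- The focal contribution of the normalizer of a characteristic subgroup. -/
theorem inf_normalizer_le_target (T : Subgroup X) {K : Subgroup T} (hK : K.Characteristic) (hne : K ≠ ⊥) :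
    T ⊓ ⁅Subgroup.normalizer (K.map T.subtype : Set X), Subgroup.normalizer (K.map T.subtype : Set X)⁆ ≤
      transferTarget (indSet (allFunctors p)) ⊤ T := by
  refine le_trans (le_of_eq ?_) (le_iSup₂ (f := fun V (_ : V ∈ indSet (allFunctors p)) =>
    T ⊓ ⁅⊤ ⊓ Subgroup.normalizer (V T : Set X), ⊤ ⊓ Subgroup.normalizer (V T : Set X)⁆) _
      ⟨_, isCharPFunctor_functorOf hK hne, rfl⟩)
  show _ = T ⊓ ⁅⊤ ⊓ Subgroup.normalizer ((functorOf K T).map T.subtype : Set X), _⁆
  rw [functorOf_self hK, top_inf_eq]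
  show _ = T ⊓ ⁅_, ⊤ ⊓ Subgroup.normalizer ((functorOf K T).map T.subtype : Set X)⁆
  rw [functorOf_self hK, top_inf_eq]

variable [Finite X] [Fact p.Prime]

/-- The `p'`-elements generate a subgroup supplemented by a Sylow subgroup. -/
theorem eq_top_of_sylow_le (T : Sylow p X) {H : Subgroup X} (hT : (T : Subgroup X) ≤ H)
    (h : ∀ k : X, (orderOf k).Coprime p → k ∈ H) : H = ⊤ := by
  set R := Subgroup.closure {k : X | (orderOf k).Coprime p} with hR
  haveI hRn : R.Normal := Subgroup.Normal.mk fun n hn g => by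
    have hle : R ≤ R.comap (MulAut.conj g).toMonoidHom := by
      refine (Subgroup.closure_le _).2 fun k hk => Subgroup.subset_closure ?_
      show (orderOf (MulAut.conj g k)).Coprime p
      rw [(MulAut.conj g).orderOf_eq k]
      exact hk
    exact hle hn
  have hq : IsPGroup p (X ⧸ R) := by
    intro q
    obtain ⟨g, rfl⟩ := QuotientGroup.mk'_surjective R q
    refine ⟨(orderOf g).factorization p, ?_⟩
    rw [← map_pow]
    refine (QuotientGroup.eq_one_iff _).2 (Subgroup.subset_closure ?_)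
    show (orderOf (g ^ p ^ (orderOf g).factorization p)).Coprime p
    rw [orderOf_pow' g (pow_ne_zero _ (Fact.out : p.Prime).ne_zero),
      Nat.gcd_eq_right (Nat.ordProj_dvd _ p)]
    exact (Nat.coprime_ordCompl (Fact.out : p.Prime) (orderOf_pos g).ne').symm
  have hmap : ((T.mapSurjective (QuotientGroup.mk'_surjective R) : Sylow p (X ⧸ R)) : Subgroup (X ⧸ R)) = ⊤ :=
    (T.mapSurjective (QuotientGroup.mk'_surjective R)).is_maximal' (hq.to_subgroup ⊤) le_top |>.symm
  refine top_le_iff.1 ?_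
  have h1 : (T : Subgroup X) ⊔ R = ⊤ := by
    have h2 := congrArg (Subgroup.comap (QuotientGroup.mk' R)) hmap
    rw [Sylow.coe_mapSurjective, Subgroup.comap_map_eq, QuotientGroup.ker_mk', Subgroup.comap_top] at h2
    exact h2
  exact h1 ▸ sup_le hT ((Subgroup.closure_le _).2 h)

omit [Finite X] in
/-- Unipotent elements act quadratically on a natural module. -/
theorem quad_of_natural {F : Type} [Field F] [Fintype F] [CharP F p] {V : Subgroup X}
    (h : Cfsg.IsNaturalSL2Module F V (⊤ : Subgroup X)) {A : Subgroup X} (hA : IsPGroup p A) :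
    ⁅⁅V, A⁆, A⁆ = ⊥ := by
  obtain ⟨-, ρ, ψ, -, -, hψ⟩ := h
  let f : A →* SL(2, F) := ρ.comp (Subgroup.inclusion le_top)
  obtain ⟨h, hh⟩ := exists_conj_le_upper (IsPGroup.of_surjective hA f.rangeRestrict f.rangeRestrict_surjective)
  have hfix : ∀ (a b : A) (x : Fin 2 → F),
      ((f b : SL(2, F)) : Matrix (Fin 2) (Fin 2) F).mulVec
          (x - ((f a : SL(2, F)) : Matrix (Fin 2) (Fin 2) F).mulVec x) =
        x - ((f a : SL(2, F)) : Matrix (Fin 2) (Fin 2) F).mulVec x := by
    intro a b x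
    obtain ⟨s, hs⟩ := mem_upperSL.1 (hh (f a) ⟨a, rfl⟩)
    obtain ⟨t, ht⟩ := mem_upperSL.1 (hh (f b) ⟨b, rfl⟩)
    have ea : f a = h * upS s * h⁻¹ := by rw [hs]; group
    have eb : f b = h * upS t * h⁻¹ := by rw [ht]; group
    set H : Matrix (Fin 2) (Fin 2) F := ((h : SL(2, F)) : Matrix (Fin 2) (Fin 2) F)
    set H' : Matrix (Fin 2) (Fin 2) F := ((h⁻¹ : SL(2, F)) : Matrix (Fin 2) (Fin 2) F)
    have hH : H' * H = 1 := by
      simp only [H, H', ← Matrix.SpecialLinearGroup.coe_mul, inv_mul_cancel, Matrix.SpecialLinearGroup.coe_one]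
    have hH' : H * H' = 1 := by
      simp only [H, H', ← Matrix.SpecialLinearGroup.coe_mul, mul_inv_cancel, Matrix.SpecialLinearGroup.coe_one]
    have key : (((upS t : SL(2, F)) : Matrix (Fin 2) (Fin 2) F) - 1) *
        (((upS s : SL(2, F)) : Matrix (Fin 2) (Fin 2) F) - 1) = 0 := by
      ext i j
      fin_cases i <;> fin_cases j <;> simp [upS_coe, Matrix.mul_apply, Fin.sum_univ_two, Matrix.one_apply]
    have k2 : (H * ((upS t : SL(2, F)) : Matrix (Fin 2) (Fin 2) F) * H' - 1) *
        (1 - H * ((upS s : SL(2, F)) : Matrix (Fin 2) (Fin 2) F) * H') = 0 := by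
      calc _ = -(H * ((((upS t : SL(2, F)) : Matrix (Fin 2) (Fin 2) F) - 1) *
            (((upS s : SL(2, F)) : Matrix (Fin 2) (Fin 2) F) - 1)) * H') := by
            simp only [mul_sub, sub_mul, mul_one, one_mul, mul_assoc]
            rw [← mul_assoc H' H, hH, one_mul, hH']
            abel
        _ = 0 := by rw [key, mul_zero, zero_mul, neg_zero]
    have k3 := congrArg (fun M => Matrix.mulVec M x) k2
    simp only [← Matrix.mulVec_mulVec, Matrix.sub_mulVec, Matrix.one_mulVec, Matrix.zero_mulVec, sub_eq_zero] at k3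
    rw [ea, eb]
    simp only [Matrix.SpecialLinearGroup.coe_mul, ← Matrix.mulVec_mulVec] at k3 ⊢
    exact k3
  refine Subgroup.commutator_eq_bot_iff_le_centralizer.2 (Subgroup.commutator_le.2 fun v hv a ha b hb => ?_)
  obtain ⟨w, hw, hwψ⟩ := hψ ⟨a, Subgroup.mem_top a⟩ ⟨v, hv⟩⁻¹
  have hva : ⁅v, a⁆ = ((⟨v, hv⟩ * w : V) : X) := by
    rw [Subgroup.coe_mul, hw, commutatorElement_def]
    simp [mul_assoc]
  obtain ⟨w', hw', hw'ψ⟩ := hψ ⟨b, Subgroup.mem_top b⟩ (⟨v, hv⟩ * w)
  have e : w' = ⟨v, hv⟩ * w := by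
    refine Additive.ofMul.injective (ψ.injective ?_)
    rw [hw'ψ, ofMul_mul, map_add, hwψ, ofMul_inv, map_neg, Matrix.mulVec_neg, ← sub_eq_add_neg]
    exact hfix ⟨a, ha⟩ ⟨b, hb⟩ _
  rw [e, ← hva, eq_mul_inv_iff_mul_eq] at hw'
  exact hw'.symm

omit [Finite X] [Fact p.Prime] in
theorem iterCommutator_le_of_le {U W A : Subgroup X} [W.Normal] {m n : ℕ} (hmn : m ≤ n)
    (h : Cfsg.iterCommutator U A m ≤ W) : Cfsg.iterCommutator U A n ≤ W := by
  induction n, hmn using Nat.le_induction with
  | base => exact h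
  | succ n _ ih =>
    rw [iterCommutator_succ]
    exact (Subgroup.commutator_mono ih le_rfl).trans (Subgroup.commutator_le_left W A)

omit [Finite X] in
theorem engelOnCore_of_natural (hp2 : p ≠ 2) {F : Type} [Field F] [Fintype F] [CharP F p]
    (h : ∀ (U W : Subgroup X) [W.Normal], U ≤ Cfsg.pCore p X → Cfsg.IsChiefFactor U W →
      ¬ ⁅U, (⊤ : Subgroup X)⁆ ≤ W → Cfsg.IsNaturalSL2Module F (U.map (QuotientGroup.mk' W)) (⊤ : Subgroup (X ⧸ W)))
    {u : X} (hu : IsPGroup p (Subgroup.zpowers u)) : EngelOnCore p u := by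
  intro U W hc hU
  haveI := hc.2.2.1
  have h3 : 3 ≤ p := lt_of_le_of_ne (Fact.out : p.Prime).two_le (Ne.symm hp2)
  by_cases hcen : ⁅U, (⊤ : Subgroup X)⁆ ≤ W
  · refine iterCommutator_le_of_le (show 1 ≤ p - 1 by omega) ?_
    rw [iterCommutator_succ, iterCommutator_zero]
    exact (Subgroup.commutator_mono le_rfl le_top).trans hcen
  · refine iterCommutator_le_of_le (show 2 ≤ p - 1 by omega) ?_
    have hq := quad_of_natural (h U W hU hc hcen) (A := (Subgroup.zpowers u).map (QuotientGroup.mk' W)) (hu.map _)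
    rw [iterCommutator_succ, iterCommutator_succ, iterCommutator_zero]
    rw [← Subgroup.map_commutator, ← Subgroup.map_commutator, Subgroup.map_eq_bot_iff, QuotientGroup.ker_mk'] at hq
    exact hq

/-- A normal subgroup meeting `T` in a characteristic subgroup contributes to the target only. -/
theorem inf_commutator_le_target (T : Sylow p X) {N : Subgroup X} [N.Normal]
    (hN : TransferOK p (allFunctors.{u} p) N) {Bi : Subgroup ↥(T : Subgroup X)} (hBi : Bi.Characteristic)
    (hB : Bi.map (T : Subgroup X).subtype = (T : Subgroup X) ⊓ N) :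
    (T : Subgroup X) ⊓ ⁅N, N⁆ ≤ transferTarget (indSet (allFunctors p)) ⊤ (T : Subgroup X) := by
  obtain ⟨P, hP⟩ := CfsgLib.StronglyPEmbedded.exists_sylow_subgroupOf_eq T (A := N)
    (Subgroup.Normal.isSubnormal inferInstance)
  have hPmap : (P : Subgroup N).map N.subtype = (T : Subgroup X) ⊓ N := by
    rw [hP, Subgroup.subgroupOf_map_subtype]
  rintro x ⟨hxS, hx⟩
  rw [← Subgroup.map_subtype_commutator] at hx
  obtain ⟨y, hy, rfl⟩ := hx
  have hyP : y ∈ (P : Subgroup N) := by rw [hP]; exact hxS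
  have hmem := Subgroup.mem_map_of_mem N.subtype (hN P ⟨hyP, by rwa [← commutator_def]⟩)
  refine (?_ : (transferTarget (indSet (allFunctors p)) ⊤ (P : Subgroup N)).map N.subtype ≤ _) hmem
  simp only [transferTarget, Subgroup.map_iSup]
  refine iSup₂_le fun V hV => ?_
  obtain ⟨W, hW, rfl⟩ := hV
  by_cases hbot : Bi = ⊥
  · refine (Subgroup.map_mono inf_le_left).trans ?_
    rw [hPmap, ← hB, hbot, Subgroup.map_bot]
    exact bot_le
  have hBp : IsPGroup p Bi := T.2.to_subgroup Bi
  set K := Cfsg.inducedFunctor W Bi with hK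
  have hKc : K.Characteristic := Subgroup.characteristic_iff_map_eq.2 fun φ => by
    rw [hK, ← inducedFunctor_map hW φ.toMonoidHom hBp fun a _ ha => φ.injective (ha.trans φ.map_one.symm),
      Subgroup.characteristic_iff_map_eq.1 hBi φ]
  have hKne : K ≠ ⊥ := (isConjugacyFunctor_inducedFunctor hW Bi hBp).2.1 hbot
  have hL : (Cfsg.inducedFunctor W (P : Subgroup N)).map N.subtype = K.map (T : Subgroup X).subtype := by
    rw [← inducedFunctor_map hW N.subtype P.2 fun a _ ha => Subtype.ext ha, hPmap, ← hB,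
      inducedFunctor_map hW (T : Subgroup X).subtype hBp fun a _ ha => Subtype.ext ha]
  refine le_trans ?_ (inf_normalizer_le_target (T : Subgroup X) hKc hKne)
  refine (Subgroup.map_inf_le _ _ _).trans (inf_le_inf ?_ ?_)
  · rw [hPmap]; exact inf_le_left
  · rw [Subgroup.map_commutator, top_inf_eq, ← hL]
    exact Subgroup.commutator_mono (Subgroup.le_normalizer_map _) (Subgroup.le_normalizer_map _)

/-- The constrained case. -/
theorem constrained_case (hp2 : p ≠ 2) (hc : Constrained p X)
    (hM : ∀ M : Subgroup X, M ≠ ⊤ → TransferOK p (allFunctors.{u} p) M) (T : Sylow p X) :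
    Cfsg.pCore p X ⊓ ⁅(⊤ : Subgroup X), ⊤⁆ ≤
      transferTarget (indSet (allFunctors p)) ⊤ (T : Subgroup X) := by
  classical
  set S := (T : Subgroup X) with hS
  set Q := Cfsg.pCore p X with hQ
  set D := transferTarget (indSet (allFunctors p)) ⊤ S with hD
  haveI hQn : Q.Normal := Cfsg.pCore_normal p X
  have hQS : Q ≤ S := Cores.pCore_le_sylow T
  have hsp := allFunctors_spec.{u} p
  have hDS : ⁅S, S⁆ ≤ D := commutator_sylow_le_target hsp (allFunctors_nonempty p) T
  have hDnorm : ∀ t ∈ S, cj t D ≤ D := transferTarget_normalized (isConjugacyFunctor_indSet hsp) T.2 le_top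
  by_cases hex : ∃ K : Subgroup S, K ≠ ⊥ ∧ K.Characteristic ∧ (K.map S.subtype).Normal
  · obtain ⟨K, hne, hch, hn⟩ := hex
    haveI := hn
    refine le_trans ?_ (inf_normalizer_le_target S hch hne)
    rw [Subgroup.normalizer_eq_top_iff.2 hn]
    exact inf_le_inf_right _ hQS
  push Not at hex
  let H0 : Subgroup X :=
    { carrier := {g | ∀ x ∈ Q, g * x * g⁻¹ * x⁻¹ ∈ D}
      one_mem' := fun x hx => by simp
      mul_mem' := fun {g h} hg hh x hx => by
        have := D.mul_mem (hg _ (hQn.conj_mem x hx h)) (hh x hx)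
        convert this using 1
        group
      inv_mem' := fun {g} hg x hx => by
        have := D.inv_mem (hg _ (hQn.conj_mem x hx g⁻¹))
        convert this using 1
        group }
  have hdone : H0 = ⊤ → Q ⊓ ⁅(⊤ : Subgroup X), ⊤⁆ ≤ D := by
    intro e x hx
    refine mem_of_transfer_invariant T hDS (hQS hx.1) (by rw [commutator_def]; exact hx.2) fun k g _ => ?_
    have hzQ : g⁻¹ * x ^ k * g ∈ Q := by simpa using hQn.conj_mem _ (Q.pow_mem hx.1 k) g⁻¹
    have h1 := (e.ge (Subgroup.mem_top g) : g ∈ H0) _ hzQ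
    have h2 := hDnorm _ (S.inv_mem (hQS hzQ)) (conj_mem_cj h1)
    convert h2 using 1
    group
  by_cases hStop : S = ⊤
  · refine le_trans inf_le_right ?_
    rwa [hStop] at hDS
  have hover : ∀ M : Subgroup X, M ≠ ⊤ → S ≤ M → M ≤ H0 := fun M hMne hSM g hg x hx =>
    tRel_of_transferOK hsp T (hM M hMne) hSM Q hQS g hg (by rw [cj_of_normal]; exact hQS) x hx
  by_cases hH0 : H0 = ⊤
  · exact hdone hH0
  have hSH0 : S ≤ H0 := hover S hStop le_rfl
  obtain ⟨M, hMco, hH0M⟩ := (eq_top_or_exists_le_coatom H0).resolve_left hH0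
  have huniq : ∀ M' : Subgroup X, IsCoatom M' ∧ S ≤ M' → M' = M := fun M' ⟨h1, h2⟩ =>
    (h1.le_iff.1 ((hover M' h1.1 h2).trans hH0M)).resolve_left hMco.1 |>.symm
  have hno : ∀ K : Subgroup S, K ≠ ⊥ → K.Characteristic → ¬ (K.map S.subtype).Normal := hex
  rcases dichotomy T hp2 hc hMco (hSH0.trans hH0M) huniq hno with
    ⟨N, hNn, hNne, hNT, hTN⟩ | ⟨K, hKn, F, hF, hF', n, hn, hcard, he⟩
  · haveI := hNn
    refine hdone (eq_top_of_sylow_le T hSH0 fun k hk x hx => ?_)
    have hBc := jTildeIn_characteristic p S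
    have hB : (jTildeIn p S).map S.subtype = S ⊓ N := (map_jTildeIn p S).trans hTN.symm
    have hND := inf_commutator_le_target T (hM N hNne) hBc hB
    have hkN : k ∈ N := by
      refine (QuotientGroup.eq_one_iff k).1 (orderOf_eq_one_iff.1 ?_)
      have hq : IsPGroup p (X ⧸ N) := by
        have h1 : S.map (QuotientGroup.mk' N) = ⊤ := by
          rw [← QuotientGroup.ker_mk' N] at hNT
          refine Subgroup.comap_injective (QuotientGroup.mk'_surjective N) ?_
          rw [Subgroup.comap_map_eq, Subgroup.comap_top, sup_comm]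
          exact hNT
        have h2 := T.2.map (QuotientGroup.mk' N)
        rw [h1] at h2
        exact h2.of_equiv Subgroup.topEquiv
      obtain ⟨j, hj⟩ := IsPGroup.iff_orderOf.1 hq (k : X ⧸ N)
      refine Nat.eq_one_of_dvd_coprimes (hk.pow_right j) (orderOf_map_dvd (QuotientGroup.mk' N) k) ?_
      exact (show orderOf ((QuotientGroup.mk' N) k) = p ^ j from hj) ▸ dvd_rfl
    set R := Q ⊓ ⁅N, N⁆ with hR
    haveI : R.Normal := inferInstance
    set τ := QuotientGroup.mk' R with hτ
    set c := k * x * k⁻¹ * x⁻¹ with hc'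
    have hcQ : c ∈ Q := Q.mul_mem (hQn.conj_mem x hx k) (Q.inv_mem hx)
    have hcN : c ∈ N := by
      have h1 := N.mul_mem hkN (hNn.conj_mem k⁻¹ (N.inv_mem hkN) x)
      rw [hc']
      convert h1 using 1
      group
    have hcomm : Commute (τ k) (τ c) := by
      have h1 : ⁅k, c⁆ ∈ R := ⟨Q.mul_mem (hQn.conj_mem c hcQ k) (Q.inv_mem hcQ),
        Subgroup.commutator_mem_commutator hkN hcN⟩
      have h2 : τ ⁅k, c⁆ = 1 := (QuotientGroup.eq_one_iff _).2 h1
      rw [map_commutatorElement] at h2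
      exact commutatorElement_eq_one_iff_commute.1 h2
    have hpow : ∀ i : ℕ, τ k ^ i * τ x = τ c ^ i * τ x * τ k ^ i := by
      intro i
      induction i with
      | zero => simp
      | succ i ih =>
        have h1 : τ k * τ x = τ c * τ x * τ k := by
          rw [hc']; simp [mul_assoc]
        calc τ k ^ (i + 1) * τ x = τ k * (τ k ^ i * τ x) := by rw [pow_succ', mul_assoc]
          _ = (τ k * τ c ^ i) * τ x * τ k ^ i := by rw [ih]; simp [mul_assoc]
          _ = τ c ^ i * (τ k * τ x) * τ k ^ i := by rw [(hcomm.pow_right i).eq]; simp [mul_assoc]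
          _ = _ := by rw [h1, pow_succ, pow_succ']; simp [mul_assoc]
    have hone : τ c ^ orderOf k = 1 := by
      have h1 := hpow (orderOf k)
      rw [← map_pow τ k, pow_orderOf_eq_one, map_one, one_mul, mul_one] at h1
      exact mul_eq_right.1 h1.symm
    have hc1 : τ c = 1 := by
      obtain ⟨j, hj⟩ := IsPGroup.iff_orderOf.1 (T.2.to_le hQS) (⟨c, hcQ⟩ : Q)
      rw [Subgroup.orderOf_mk] at hj
      refine orderOf_eq_one_iff.1 (Nat.eq_one_of_dvd_coprimes (hk.pow_right j)
        (orderOf_dvd_iff_pow_eq_one.2 hone) ?_)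
      exact hj ▸ orderOf_map_dvd τ c
    exact hND ⟨hQS hcQ, ((QuotientGroup.eq_one_iff c).1 hc1).2⟩
  · obtain ⟨-, hnat⟩ := Cfsg.Agent.S2764.result T hc ⟨M, ⟨hMco, hSH0.trans hH0M⟩, huniq⟩ K F n hn hcard he hno
    haveI : CharP F p := charP_of_card_eq_prime_pow hcard
    obtain ⟨u, huS, huQ⟩ : ∃ u ∈ S, u ∉ Q := by
      by_contra! hcon
      have e : Q = S := le_antisymm hQS hcon
      refine hno ⊤ ?_ inferInstance (by rw [← MonoidHom.range_eq_map, Subgroup.range_subtype, ← e]; exact hQn)
      intro htb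
      have hS0 : S = ⊥ := by
        rw [← Subgroup.range_subtype S, MonoidHom.range_eq_map, htb, Subgroup.map_bot]
      have hQ0 : Q = ⊥ := e.trans hS0
      refine hMco.1 (top_le_iff.1 fun g _ => ?_)
      have h2 : g ∈ Q := hc (fun q hq => by
        have hq1 : q = 1 := Subgroup.mem_bot.1 (hQ0.le hq)
        rw [hq1, one_mul, mul_one])
      exact (hSH0.trans hH0M) (hQS h2)
    rw [← commutator_def]
    exact engel_transfer T (transferTarget_le.trans inf_le_left) hDS
      (fun M' hM' hSM' => tRel_of_transferOK hsp T (hM M' hM') hSM') huS huQ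
      (engelOnCore_of_natural hp2 hnat (T.2.to_le (Subgroup.zpowers_le.2 huS)))

/-- Transfer is controlled by the characteristic subgroups of a Sylow subgroup, `p` odd. -/
theorem transferOK_all (hp2 : p ≠ 2) : TransferOK p (allFunctors.{u} p) X :=
  transferOK_of_constrained' (allFunctors_spec p) fun _ _ _ _ hc hM T => constrained_case hp2 hc hM T

end CfsgLib.PushUp.OddTransfer
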