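import Cfsg.Agent.Lib.PushUp.OddTransfer.Natural
import Cfsg.Agent.Lib.TwoGroupTricks.PushingUpBase
import Cfsg.Agent.Lib.TwoGroupTricks.PushingUpJTilde

/-!
Odd characteristic: a constrained group with Sylow subgroup in a unique maximal subgroup and no
characteristic subgroup of it normal has a proper normal subgroup cutting out `J̃(T)`, or a quotient `PSL₂`.
-/

set_option autoImplicit false
set_option linter.unusedSectionVars false
set_option linter.style.haveILetI false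

namespace CfsgLib.PushUp.OddTransfer

open CfsgLib.FFModules.SL2Pair CfsgLib.FFModules.MinimalParabolic
open Cfsg
open scoped MatrixGroups Pointwise commutatorElement IsMulCommutative

variable {X : Type*} [Group X] {p : ℕ}

/-- `C_T(Ω₁(Z(J(T))))`. -/
def jTilde (p : ℕ) (T : Subgroup X) : Subgroup X :=
  T ⊓ Subgroup.centralizer (omegaOne p (centerThompsonOf p T) : Set X)

theorem omegaOne_map_eq {P : Type*} [Group P] (φ : P ≃* P) {K : Subgroup P}
    (h : K.map φ.toMonoidHom = K) : (omegaOne p K).map φ.toMonoidHom = omegaOne p K := by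
  rw [ThompsonJ.map_omegaOne (f := φ.toMonoidHom) φ.injective, h]

theorem omegaOne_center_characteristic (p : ℕ) (P : Type*) [Group P] :
    (omegaOne p (Subgroup.center P)).Characteristic :=
  Subgroup.characteristic_iff_map_eq.2 fun φ =>
    omegaOne_map_eq φ (Subgroup.characteristic_iff_map_eq.1 inferInstance φ)

theorem omegaCenterThompson_map_eq {P : Type*} [Group P] (p : ℕ) (φ : P ≃* P) :
    (omegaCenterThompson p P).map φ.toMonoidHom = omegaCenterThompson p P := by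
  refine omegaOne_map_eq φ ?_
  rw [ThompsonJ.map_inf_centralizer (f := φ.toMonoidHom) φ.injective,
    Subgroup.characteristic_iff_map_eq.1 (ThompsonJ.thompsonSubgroup_characteristic p P) φ]

/-- `J̃(T)` as a characteristic subgroup of `T`. -/
def jTildeIn (p : ℕ) (P : Type*) [Group P] : Subgroup P :=
  Subgroup.centralizer (omegaCenterThompson p P : Set P)

theorem jTildeIn_characteristic (p : ℕ) (P : Type*) [Group P] : (jTildeIn p P).Characteristic :=
  Subgroup.characteristic_iff_map_eq.2 fun φ => by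
    refine le_antisymm ?_ ?_
    · rintro _ ⟨x, hx, rfl⟩ z hz
      obtain ⟨w, hw, rfl⟩ := (omegaCenterThompson_map_eq p φ).ge hz
      show φ w * φ x = φ x * φ w
      rw [← map_mul, ← map_mul, hx w hw]
    · intro y hy
      refine ⟨φ.symm y, fun w hw => φ.injective ?_, φ.apply_symm_apply y⟩
      rw [map_mul, map_mul, φ.apply_symm_apply]
      exact hy _ ((omegaCenterThompson_map_eq p φ).le ⟨w, hw, rfl⟩)

theorem map_jTildeIn (p : ℕ) (T : Subgroup X) : (jTildeIn p T).map T.subtype = jTilde p T := by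
  have hZ : (omegaCenterThompson p T).map T.subtype = omegaOne p (centerThompsonOf p T) :=
    ThompsonJ.map_omegaCenterThompson T
  refine le_antisymm ?_ ?_
  · rintro _ ⟨x, hx, rfl⟩
    refine ⟨x.2, ?_⟩
    rw [← hZ]
    rintro _ ⟨w, hw, rfl⟩
    exact congrArg T.subtype (hx w hw)
  · rintro y ⟨hyT, hy⟩
    refine ⟨⟨y, hyT⟩, fun w hw => Subtype.ext (hy _ ?_), rfl⟩
    rw [← hZ]
    exact ⟨w, hw, rfl⟩

theorem normalizer_le_jTilde (T : Subgroup X) :
    Subgroup.normalizer (T : Set X) ≤ Subgroup.normalizer (jTilde p T : Set X) := by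
  haveI := jTildeIn_characteristic p T
  rw [← map_jTildeIn]
  exact Cores.normalizer_le_normalizer_map_subtype T _

/-- What the `SL₂` case gives about `Q = O_p(X)`, `V = Ω₁(Z(Q))` and `S`. -/
structure NaturalData (p : ℕ) (S Q V M : Subgroup X) : Prop where
  jTilde_eq : jTilde p S = S
  cent : S ⊓ Subgroup.centralizer (V : Set X) ≤ Q
  center_le : omegaOneCenter p S ≤ V
  centV : Subgroup.centralizer (V : Set X) ≤ M
  card_V : Nat.card V * Nat.card Q = Nat.card S * Nat.card ↥(V ⊓ Subgroup.centralizer (S : Set X))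
  fix_eq : ∀ g ∈ S, g ∉ Q → ∀ v ∈ V, g * v = v * g → v ∈ Subgroup.centralizer (S : Set X)
  comm_le : ⁅V, S⁆ ≤ V ⊓ Subgroup.centralizer (S : Set X)
  line : ⁅V, S⁆ ⊓ Subgroup.centralizer ((⊤ : Subgroup X) : Set X) = ⊥
  ti : ∀ g : X, ∀ z ∈ S, z ∉ Q → g * z * g⁻¹ ∈ S → g ∈ M
  offender : ∃ A, ThompsonJ.IsMaxEA p S A ∧ ¬ A ≤ Q

variable [Finite X] [Fact p.Prime]

set_option maxHeartbeats 1000000 in
/-- The dichotomy. -/
theorem dichotomy' (T : Sylow p X) (hp2 : p ≠ 2)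
    (hc : Subgroup.centralizer (pCore p X : Set X) ≤ pCore p X) {M : Subgroup X} (hM : IsCoatom M)
    (hTM : (T : Subgroup X) ≤ M)
    (huniq : ∀ M' : Subgroup X, IsCoatom M' ∧ (T : Subgroup X) ≤ M' → M' = M)
    (hZTn : ¬ (omegaOneCenter p (T : Subgroup X)).Normal)
    (hJt : ¬ (jTilde p (T : Subgroup X)).Normal) :
    (∃ N : Subgroup X, N.Normal ∧ N ≠ ⊤ ∧ N ⊔ (T : Subgroup X) = ⊤ ∧
      (T : Subgroup X) ⊓ N = jTilde p (T : Subgroup X)) ∨
    (∃ (K : Subgroup X) (_ : K.Normal) (F : Type) (_ : Field F) (_ : Fintype F) (n : ℕ),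
      1 ≤ n ∧ Fintype.card F = p ^ n ∧
        Nonempty (X ⧸ K ≃* Matrix.ProjectiveSpecialLinearGroup (Fin 2) F)) ∧
      NaturalData p (T : Subgroup X) (pCore p X) (omegaOneCenter p (pCore p X)) M := by
  classical
  set S := (T : Subgroup X)
  haveI hQn : (pCore p X).Normal := Cfsg.pCore_normal p X
  set Q := pCore p X with hQdef
  have hQS : Q ≤ S := CfsgLib.Cores.pCore_le_sylow T
  -- `T` is not trivial
  have hSne : S ≠ ⊥ := fun e => hM.1 (top_le_iff.1 (fun x _ => by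
    have h1 : Q = ⊥ := le_bot_iff.1 (hQS.trans e.le)
    have h2 : x ∈ Subgroup.centralizer (Q : Set X) := fun q hq => by
      rw [h1, Subgroup.coe_bot, Set.mem_singleton_iff] at hq
      rw [hq, one_mul, mul_one]
    have h3 : x ∈ (⊥ : Subgroup X) := h1 ▸ hc h2
    rw [Subgroup.mem_bot.1 h3]
    exact M.one_mem))
  haveI : Nontrivial S := (Subgroup.nontrivial_iff_ne_bot S).2 hSne
  have hle_M : ∀ Y : Subgroup X, S ≤ Y → Y ≠ ⊤ → Y ≤ M := fun Y hY hne =>
    CfsgLib.TwoGroupTricks.PushingUp.le_of_ne_top huniq hY hne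
  -- the centre
  set ZT := omegaOneCenter p S with hZT
  set V := omegaOneCenter p Q with hVdef
  haveI hVn : V.Normal := omegaOneCenter_normal Q
  have hVel : IsElementaryAbelian p V := isElementaryAbelian_omegaOneCenter Q
  haveI : IsMulCommutative ↥V := hVel.1
  set C := Subgroup.centralizer (V : Set X) with hCdef
  have hVQ : V ≤ Q ⊓ Subgroup.centralizer (Q : Set X) := ThompsonJ.omegaOne_le p _
  have hQC : Q ≤ C := fun x hx => Subgroup.mem_centralizer_iff.2 fun v hv =>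
    (Subgroup.mem_centralizer_iff.1 (hVQ hv).2 x hx).symm
  have hZV : ZT ≤ V := by
    refine ThompsonJ.omegaOne_mono fun x hx => ?_
    have hxQ : x ∈ Subgroup.centralizer (Q : Set X) := Subgroup.centralizer_le hQS hx.2
    exact ⟨hc hxQ, hxQ⟩
  have hCZ : Subgroup.centralizer (ZT : Set X) ≤ M := by
    refine hle_M _ (fun t ht => Subgroup.mem_centralizer_iff.2 fun z hz => ?_) fun e => hZTn ?_
    · exact (Subgroup.mem_centralizer_iff.1 (ThompsonJ.omegaOne_le p _ hz).2 t ht).symm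
    · exact ⟨fun z hz g => by
        have := (e.ge (Subgroup.mem_top g)) z hz
        rwa [← this, mul_inv_cancel_right]⟩
  have hCM : C ≤ M := (Subgroup.centralizer_le hZV).trans hCZ
  have hnotsup : ∀ N : Subgroup X, N ≤ M → S ⊔ N ≠ ⊤ := fun N hN e =>
    hM.1 (top_le_iff.1 (e ▸ sup_le hTM hN))
  have hinfQ : ∀ N : Subgroup X, N.Normal → N ≤ M → S ⊓ N ≤ Q := fun N hN hNM =>
    haveI := hN
    CfsgLib.TwoGroupTricks.PushingUp.inf_normal_le_pCore T hM huniq N (hnotsup N hNM)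
  have hTC : S ⊓ C ≤ Q := hinfQ C inferInstance hCM
  -- the Thompson subgroup
  set J := thompsonSubgroupOf p S with hJdef
  have hJS : J ≤ S := ThompsonJ.thompsonSubgroupOf_le p S
  have hJQ : ¬ J ≤ Q := fun hle => by
    haveI hJn : J.Normal := by
      rw [hJdef, ← ThompsonJ.thompsonSubgroupOf_eq_of_le hQS hle]
      exact Subgroup.normalizer_eq_top_iff.1 (top_le_iff.1 (le_trans
        (Subgroup.normalizer_eq_top_iff.2 hQn).ge (ThompsonJ.normalizer_le_normalizer_thompsonSubgroupOf p Q)))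
    haveI : (omegaOne p (centerThompsonOf p S)).Normal := omegaOneCenter_normal (p := p) J
    have h1 := hinfQ (Subgroup.centralizer (omegaOne p (centerThompsonOf p S) : Set X)) inferInstance
      ((Subgroup.centralizer_le (ThompsonJ.omegaOne_center_le S)).trans hCZ)
    refine hJt ?_
    rw [show jTilde p S = Q ⊓ Subgroup.centralizer (omegaOne p (centerThompsonOf p S) : Set X) from
      le_antisymm (le_inf h1 inf_le_right) (inf_le_inf_right _ hQS)]
    infer_instance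
  have hJconj : ∀ g ∈ Subgroup.normalizer (S : Set X), ∀ x ∈ J, g * x * g⁻¹ ∈ J := fun g hg x hx =>
    (Subgroup.mem_normalizer_iff.1 (ThompsonJ.normalizer_le_normalizer_thompsonSubgroupOf p S hg) x).1 hx
  obtain ⟨A₀, hA₀, hA₀C⟩ : ∃ A, ThompsonJ.IsMaxEA p S A ∧ ¬ A ≤ C := by
    by_contra hno'
    push Not at hno'
    exact hJQ ((le_inf hJS (ThompsonJ.thompsonSubgroupOf_le_iff.2 hno')).trans hTC)
  -- the quotient
  let π : X →* X ⧸ C := QuotientGroup.mk' C
  have hπ : Function.Surjective π := QuotientGroup.mk'_surjective C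
  have hker : π.ker = C := QuotientGroup.ker_mk' C
  let T' : Sylow p (X ⧸ C) := T.mapSurjective hπ
  have hT' : (T' : Subgroup (X ⧸ C)) = S.map π := rfl
  set M' := M.map π with hM'
  have hcM : M'.comap π = M := by rw [hM', Subgroup.comap_map_eq, hker, sup_eq_left.2 hCM]
  have hsub : ∀ Y : Subgroup (X ⧸ C), (T' : Subgroup (X ⧸ C)) ≤ Y → Y ≠ ⊤ → Y ≤ M' := by
    intro Y hY hYne
    have h1 : Y.comap π ≠ ⊤ := fun e => hYne (Subgroup.comap_injective hπ (e.trans (Subgroup.comap_top π).symm))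
    have h2 := hle_M _ (Subgroup.map_le_iff_le_comap.1 (hT' ▸ hY)) h1
    rw [← Subgroup.map_comap_eq_self_of_surjective hπ Y]
    exact Subgroup.map_mono h2
  letI : DistribMulAction (X ⧸ C) (Additive ↥V) := quotAction V
  have hfix : ∀ (Y : Subgroup X) (v : Additive ↥V), v ∈ fixedSub (Y.map π) ↔
      (v.toMul : X) ∈ Subgroup.centralizer (Y : Set X) := fun Y v => quotAction_fixedSub Y v
  have hsmul : ∀ (g : X) (v : Additive ↥V), ((π g • v).toMul : X) = g * (v.toMul : X) * g⁻¹ :=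
    fun g v => quotAction_smul g v
  have hM'top : M' ≠ ⊤ := fun e => hM.1 (by rw [← hcM, e, Subgroup.comap_top])
  have hcore : Cfsg.pCore p (X ⧸ C) = ⊥ := by
    haveI : (Cfsg.pCore p (X ⧸ C)).Normal := Cfsg.pCore_normal p _
    set N := (Cfsg.pCore p (X ⧸ C)).comap π with hN
    haveI : N.Normal := Subgroup.Normal.comap inferInstance π
    have hNT : N ≤ C ⊔ (S ⊓ N) := by
      intro n hn
      have h1 : π n ∈ (T' : Subgroup (X ⧸ C)) :=
        CfsgLib.Cores.pCore_le_sylow T' (Subgroup.mem_comap.1 hn)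
      obtain ⟨t, ht, e⟩ := h1
      have hc' : n * t⁻¹ ∈ C := hker ▸ MonoidHom.mem_ker.2 (by rw [map_mul, map_inv, e, mul_inv_cancel])
      have htN : t ∈ N := Subgroup.mem_comap.2 (e ▸ Subgroup.mem_comap.1 hn)
      simpa using Subgroup.mul_mem_sup hc' (show t ∈ S ⊓ N from ⟨ht, htN⟩)
    have hNM : N ≤ M := hNT.trans (sup_le hCM (inf_le_left.trans hTM))
    have h3 : N ≤ C := hNT.trans (sup_le le_rfl ((hinfQ N inferInstance hNM).trans hQC))
    refine (Subgroup.eq_bot_iff_forall _).2 fun q hq => ?_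
    obtain ⟨g, rfl⟩ := hπ q
    exact MonoidHom.mem_ker.1 (hker.symm ▸ h3 (Subgroup.mem_comap.2 hq))
  have hSet : Setting p T' M' (Additive ↥V) :=
    { faithful := fun q hq => by
        obtain ⟨g, rfl⟩ := hπ q
        refine MonoidHom.mem_ker.1 (hker.symm ▸ Subgroup.mem_centralizer_iff.2 fun v hv => ?_)
        have h1 := congrArg (fun w : Additive ↥V => (w.toMul : X)) (hq (Additive.ofMul ⟨v, hv⟩))
        simp only [hsmul] at h1
        exact (mul_inv_eq_iff_eq_mul.1 h1).symm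
      exponent := fun v => Additive.toMul.injective (Subtype.ext (by simpa using hVel.2 _ v.toMul.2))
      coatom := ⟨hM'top, fun Y hY => by_contra fun hYne =>
        hY.not_ge (hsub Y ((Subgroup.map_mono hTM).trans hY.le) hYne)⟩
      sylow_le := Subgroup.map_mono hTM
      unique := fun N hN hTN => (hN.le_iff.1 (hsub N hTN hN.1)).elim (fun e => absurd e hM'top) Eq.symm
      not_normal := fun hn => hA₀C <| by
        have hbot : (T' : Subgroup (X ⧸ C)) = ⊥ := le_bot_iff.1 (hcore ▸ le_sSup ⟨hn, T'.2⟩)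
        exact hA₀.le.trans (hker ▸ (Subgroup.map_eq_bot_iff _).1 (hT' ▸ hbot))
      core := hcore
      moved := fun q hq => by
        obtain ⟨g, rfl⟩ := hπ q
        by_contra hno'
        push Not at hno'
        refine hq (Subgroup.mem_map_of_mem π (hCZ (Subgroup.mem_centralizer_iff.2 fun z hz => ?_)))
        have h1 := hno' (Additive.ofMul ⟨z, hZV hz⟩) ((hfix _ _).2 (ThompsonJ.omegaOne_le p _ hz).2)
        have h2 := congrArg (fun w : Additive ↥V => (w.toMul : X)) h1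
        simp only [hsmul] at h2
        exact (mul_inv_eq_iff_eq_mul.1 h2).symm }
  -- offenders
  have hcardfix : ∀ Y : Subgroup X, Nat.card (fixedSub (Y.map π) : AddSubgroup (Additive ↥V)) =
      Nat.card ↥(V ⊓ Subgroup.centralizer (Y : Set X)) := fun Y => Nat.card_congr
    { toFun := fun v => ⟨((v : Additive ↥V).toMul : X), (v : Additive ↥V).toMul.2, (hfix Y _).1 v.2⟩
      invFun := fun x => ⟨Additive.ofMul ⟨x, x.2.1⟩, (hfix Y _).2 x.2.2⟩
      left_inv := fun v => rfl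
      right_inv := fun x => rfl }
  have hVS : V ≤ S := hVQ.trans (inf_le_left.trans hQS)
  have hbest : ∀ A, ThompsonJ.IsMaxEA p S A → ∀ B : Subgroup X, B ≤ A →
      Nat.card B * Nat.card ↥(V ⊓ Subgroup.centralizer (B : Set X)) ≤
        Nat.card A * Nat.card ↥(V ⊓ Subgroup.centralizer (A : Set X)) := by
    intro A hA B hB
    set D := V ⊓ Subgroup.centralizer (B : Set X) with hD
    have hBD : B ≤ Subgroup.centralizer (D : Set X) := Subgroup.le_centralizer_iff.1 inf_le_right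
    have hsup := hA.card_le (B ⊔ D) (sup_le (hB.trans hA.le) (inf_le_left.trans hVS))
      (ThompsonJ.isElementaryAbelian_sup (ThompsonJ.isElementaryAbelian_mono hA.elem hB)
        (ThompsonJ.isElementaryAbelian_mono hVel inf_le_left) hBD)
    rw [card_mul_card_eq B D hBD]
    exact Nat.mul_le_mul hsup (Subgroup.card_le_of_le fun x hx => ⟨hx.2.1,
      ThompsonJ.isElementaryAbelian_le_centralizer hA.elem (hB hx.1)⟩)
  have hcardmap : ∀ Y : Subgroup X, Nat.card Y = Nat.card (Y.map π) * Nat.card ↥(Y ⊓ C) := by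
    intro Y
    rw [← Subgroup.relIndex_ker, hker, ← Subgroup.inf_relIndex_right C Y]
    rw [mul_comm, inf_comm C Y, Subgroup.relIndex, Nat.card_congr (Subgroup.subgroupOfEquivOfLe
      (inf_le_left : Y ⊓ C ≤ Y)).symm.toEquiv, Subgroup.card_mul_index]
  have hmu : ∀ A, ThompsonJ.IsMaxEA p S A → Nat.card (Additive ↥V) ≤ mu (A.map π) (Additive ↥V) := by
    intro A hA
    have h1 := hbest A hA (A ⊓ C) inf_le_left
    rw [show V ⊓ Subgroup.centralizer ((A ⊓ C : Subgroup X) : Set X) = V from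
      inf_eq_left.2 (Subgroup.le_centralizer_iff.1 inf_le_right), hcardmap A,
      mul_comm (Nat.card (A.map π)), mul_assoc] at h1
    rw [mu, hcardfix, Nat.card_congr Additive.toMul]
    exact Nat.le_of_mul_le_mul_left h1 Nat.card_pos
  have hquadB : ∀ A, ThompsonJ.IsMaxEA p S A → ¬ A ≤ C → ∃ B ≤ A, B.map π ≠ ⊥ ∧
      IsQuad p (B.map π) (Additive ↥V) ∧ Nat.card B * Nat.card ↥(V ⊓ Subgroup.centralizer (B : Set X)) =
        Nat.card A * Nat.card ↥(V ⊓ Subgroup.centralizer (A : Set X)) := by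
    intro A hA hAC
    obtain ⟨B, hBA, hBne, hBquad, hBμ⟩ := exists_quadratic hVel
      (fun g _ => by rw [Subgroup.normalizer_eq_top_iff.2 hVn]; exact Subgroup.mem_top g)
      (show Cfsg.IsBestOffenderOn p V A from ⟨hbest A hA, by
        rw [(Subgroup.commutator_eq_bot_iff_le_centralizer.2
          (ThompsonJ.isElementaryAbelian_le_centralizer hA.elem))]
        exact bot_le, fun a ha => by rw [hA.elem.2 a ha]; exact one_mem _⟩) hAC
    refine ⟨B, hBA, fun e => hBne (((Subgroup.map_eq_bot_iff _).1 e).trans hker.le),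
      ⟨ThompsonJ.isPGroup_of_isElementaryAbelian (ThompsonJ.isElementaryAbelian_map
        (ThompsonJ.isElementaryAbelian_mono hA.elem hBA) π), ?_⟩, hBμ⟩
    rintro _ ⟨a, ha, rfl⟩ v
    refine (hfix _ _).2 (Subgroup.mem_centralizer_iff.2 fun b hb => ?_)
    have h1 : (((π a • v - v : Additive ↥V)).toMul : X) = ⁅(v.toMul : X), a⁆⁻¹ := by
      show ((π a • v).toMul : X) / (v.toMul : X) = _
      rw [hsmul, div_eq_mul_inv, commutatorElement_inv, commutatorElement_def]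
    rw [h1]
    exact (Commute.inv_right (hBquad _ v.toMul.2 _ ha _ hb)).eq
  -- no over-offenders
  have hupper : ∀ A, ThompsonJ.IsMaxEA p S A → Nat.card A * Nat.card ↥(V ⊓ Subgroup.centralizer (A : Set X)) ≤
      Nat.card V * Nat.card ↥(A ⊓ C) := by
    intro A hA
    by_cases hAC : A ≤ C
    · rw [inf_eq_left.2 hAC, mul_comm (Nat.card V)]
      exact Nat.mul_le_mul_left _ (Subgroup.card_le_of_le inf_le_left)
    · obtain ⟨B, hBA, hBne, hBq, hBμ⟩ := hquadB A hA hAC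
      have h1 := noOver hSet _ hBq
      rw [mu, hcardfix, Nat.card_congr Additive.toMul] at h1
      rw [← hBμ, hcardmap B]
      calc Nat.card (B.map π) * Nat.card ↥(B ⊓ C) * Nat.card ↥(V ⊓ Subgroup.centralizer (B : Set X))
          = Nat.card (B.map π) * Nat.card ↥(V ⊓ Subgroup.centralizer (B : Set X)) * Nat.card ↥(B ⊓ C) := by ring
        _ ≤ Nat.card V * Nat.card ↥(A ⊓ C) :=
          Nat.mul_le_mul h1 (Subgroup.card_le_of_le (inf_le_inf_right C hBA))
  -- the structure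
  obtain ⟨B, hBA, hBne, hBq, hBμ⟩ := hquadB A₀ hA₀ hA₀C
  have hoff : Nat.card (Additive ↥V) ≤ mu (B.map π) (Additive ↥V) := by
    have h1 := hbest A₀ hA₀ (B ⊓ C) (inf_le_left.trans hBA)
    rw [show V ⊓ Subgroup.centralizer ((B ⊓ C : Subgroup X) : Set X) = V from
      inf_eq_left.2 (Subgroup.le_centralizer_iff.1 inf_le_right), ← hBμ, hcardmap B,
      mul_comm (Nat.card (B.map π)), mul_assoc] at h1
    rw [mu, hcardfix, Nat.card_congr Additive.toMul]
    exact Nat.le_of_mul_le_mul_left h1 Nat.card_pos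
  obtain ⟨B₀, -, hB₀⟩ := exists_min hBq hBne (le_antisymm (noOver hSet _ hBq) hoff)
  obtain ⟨r, E, hr, hE, htop, hconj, htype₀, -, hperm⟩ := hSet.hasStructure hB₀
  have htype : ∀ i, IsSL2Comp p (E i) (Additive ↥V) := fun i =>
    (htype₀ i).resolve_right fun h => hp2 h.1
  set PE := ⨆ i, E i with hPE
  have hAPE : ∀ A, ThompsonJ.IsMaxEA p S A → A.map π ≤ (T' : Subgroup (X ⧸ C)) ⊓ PE := fun A hA =>
    le_inf (Subgroup.map_mono hA.le) (hSet.toBase.le_iSup_of_mu hr hE htop htype₀ hperm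
      (fun a ha b hb => ThompsonJ.isElementaryAbelian_comm (ThompsonJ.isElementaryAbelian_map hA.elem π) ha hb)
      (ThompsonJ.isElementaryAbelian_map hA.elem π).2 (hmu A hA))
  have hJmap : J.map π = ⨆ A : {A : Subgroup X // ThompsonJ.IsMaxEA p S A}, (A : Subgroup X).map π := by
    rw [hJdef, ThompsonJ.thompsonSubgroupOf_eq_iSup, iSup_subtype']
    rw [Subgroup.map_iSup]
  have hJcov : J.map π = (T' : Subgroup (X ⧸ C)) ⊓ PE := by
    rw [hJmap]
    refine iSup_eq_inf hSet hp2 hE hconj htype _ (fun A => hAPE _ A.2) (fun A => hmu _ A.2) ?_ ?_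
    · intro e
      refine hA₀C (le_trans ((Subgroup.map_eq_bot_iff _).1 (le_bot_iff.1 (e ▸ ?_))) hker.le)
      exact le_iSup (fun A : {A : Subgroup X // ThompsonJ.IsMaxEA p S A} => (A : Subgroup X).map π) ⟨A₀, hA₀⟩
    · rw [← hJmap]
      rintro _ ⟨t, ht, rfl⟩ _ ⟨x, hx, rfl⟩
      exact ⟨t * x * t⁻¹, hJconj t (Subgroup.le_normalizer ht) x hx, by simp⟩
  -- maximal elementary subgroups inside `Q`
  have hcore' : ∀ A, ThompsonJ.IsMaxEA p S A → ThompsonJ.IsMaxEA p S ((A ⊓ C) ⊔ V) ∧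
      V ⊓ Subgroup.centralizer (A : Set X) = A ⊓ V := by
    intro A hA
    have hVA : V ⊓ Subgroup.centralizer (A : Set X) = A ⊓ V := le_antisymm
      (fun v hv => ⟨hA.mem_of_centralizes (hVS hv.1) (hVel.2 v hv.1) hv.2, hv.1⟩)
      fun v hv => ⟨hv.2, ThompsonJ.isElementaryAbelian_le_centralizer hA.elem hv.1⟩
    have hcomm : A ⊓ C ≤ Subgroup.centralizer (V : Set X) := inf_le_right
    refine ⟨⟨sup_le (inf_le_left.trans hA.le) hVS, ThompsonJ.isElementaryAbelian_sup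
      (ThompsonJ.isElementaryAbelian_mono hA.elem inf_le_left) hVel hcomm, fun B' hB' hB'e =>
        (hA.card_le B' hB' hB'e).trans ?_⟩, hVA⟩
    have h1 := card_mul_card_eq (A ⊓ C) V hcomm
    have h2 : A ⊓ C ⊓ V = A ⊓ V := le_antisymm (inf_le_inf_right V inf_le_left)
      fun v hv => ⟨⟨hv.1, hQC (hVQ hv.2).1⟩, hv.2⟩
    rw [h2] at h1
    have h3 := hupper A hA
    rw [hVA, mul_comm (Nat.card V), h1] at h3
    exact Nat.le_of_mul_le_mul_right h3 Nat.card_pos
  have hAQ : ∀ A, ThompsonJ.IsMaxEA p S A → (A ⊓ C) ⊔ V ≤ Q := fun A hA =>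
    sup_le ((le_inf (inf_le_left.trans hA.le) inf_le_right).trans hTC) (hVQ.trans inf_le_left)
  have hmaxQ : ∀ A, ThompsonJ.IsMaxEA p Q A → ThompsonJ.IsMaxEA p S A := fun A hA =>
    ⟨hA.le.trans hQS, hA.elem, fun B' hB' hB'e => ((hcore' A₀ hA₀).1.card_le B' hB' hB'e).trans
      (hA.card_le _ (hAQ A₀ hA₀) (hcore' A₀ hA₀).1.elem)⟩
  have hJQJ : thompsonSubgroupOf p Q ≤ J :=
    ThompsonJ.thompsonSubgroupOf_le_iff.2 fun A hA => ThompsonJ.le_thompsonSubgroupOf (hmaxQ A hA)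
  have hAJQ : ∀ A, ThompsonJ.IsMaxEA p S A → (A ⊓ C) ⊔ V ≤ thompsonSubgroupOf p Q := fun A hA =>
    ThompsonJ.le_thompsonSubgroupOf ⟨hAQ A hA, (hcore' A hA).1.elem,
      fun B' hB' hB'e => (hcore' A hA).1.card_le B' (hB'.trans hQS) hB'e⟩
  set Z₀ := omegaOne p (centerThompsonOf p S) with hZ₀
  set Y := omegaOne p (centerThompsonOf p Q) with hY
  have hYel : IsElementaryAbelian p Y := ThompsonJ.isElementaryAbelian_omegaOne_centerThompsonOf p Q
  have hZ₀el : IsElementaryAbelian p Z₀ := ThompsonJ.isElementaryAbelian_omegaOne_centerThompsonOf p S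
  haveI hYn : Y.Normal := by
    haveI : (thompsonSubgroupOf p Q).Normal := Subgroup.normalizer_eq_top_iff.1 (top_le_iff.1 (le_trans
        (Subgroup.normalizer_eq_top_iff.2 hQn).ge (ThompsonJ.normalizer_le_normalizer_thompsonSubgroupOf p Q)))
    exact omegaOneCenter_normal (p := p) (thompsonSubgroupOf p Q)
  have hYQ : Y ≤ thompsonSubgroupOf p Q := (ThompsonJ.omegaOne_le p _).trans inf_le_left
  have hYcent : Y ≤ Subgroup.centralizer (thompsonSubgroupOf p Q : Set X) :=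
    (ThompsonJ.omegaOne_le p _).trans inf_le_right
  have hVY : V ≤ Y := fun v hv => ThompsonJ.mem_omegaOne
    ⟨hAJQ A₀ hA₀ (Subgroup.mem_sup_right hv),
      Subgroup.centralizer_le (ThompsonJ.thompsonSubgroupOf_le p Q) (hVQ hv).2⟩ (hVel.2 v hv)
  have hZ₀Q : Z₀ ≤ thompsonSubgroupOf p Q :=
    (ThompsonJ.omegaOne_centerThompsonOf_le (hcore' A₀ hA₀).1).trans (hAJQ A₀ hA₀)
  have hZ₀J : Z₀ ≤ Subgroup.centralizer (J : Set X) := (ThompsonJ.omegaOne_le p _).trans inf_le_right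
  have hZ₀Y : Z₀ ≤ Y := fun z hz => ThompsonJ.mem_omegaOne
    ⟨hZ₀Q hz, Subgroup.centralizer_le hJQJ (hZ₀J hz)⟩ (hZ₀el.2 z hz)
  -- offenders centralize `Y / V`
  set G₁ : Subgroup X := (Subgroup.centralizer
    ((Y.map (QuotientGroup.mk' V) : Subgroup (X ⧸ V)) : Set (X ⧸ V))).comap (QuotientGroup.mk' V) with hG₁
  have hG₁n : G₁.Normal := by
    haveI : (Y.map (QuotientGroup.mk' V)).Normal := hYn.map _ (QuotientGroup.mk'_surjective V)
    exact Subgroup.Normal.comap inferInstance _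
  have hG₁mem : ∀ {g}, g ∈ G₁ → ∀ y ∈ Y, g * y * g⁻¹ * y⁻¹ ∈ V := fun {g} hg y hy => by
    refine (QuotientGroup.eq_one_iff _).1 ?_
    show QuotientGroup.mk' V (g * y * g⁻¹ * y⁻¹) = 1
    rw [map_mul, map_mul, map_mul, map_inv, map_inv,
      (hg (QuotientGroup.mk' V y) ⟨y, hy, rfl⟩).symm]
    group
  have hAY : ∀ A, ThompsonJ.IsMaxEA p S A → A ≤ G₁ := by
    intro A hA
    have hcomm : A ⊓ C ≤ Subgroup.centralizer (Y : Set X) := fun a ha y hy =>
      (hYcent hy a (hAJQ A hA (Subgroup.mem_sup_left ha))).symm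
    have h1 := hA.card_le ((A ⊓ C) ⊔ Y)
      (sup_le (inf_le_left.trans hA.le) (hYQ.trans ((ThompsonJ.thompsonSubgroupOf_le p Q).trans hQS)))
      (ThompsonJ.isElementaryAbelian_sup (ThompsonJ.isElementaryAbelian_mono hA.elem inf_le_left) hYel hcomm)
    have h2 := card_mul_card_eq (A ⊓ C) Y hcomm
    have h3 : Nat.card ↥(A ⊓ C ⊓ Y) ≤ Nat.card ↥(A ⊓ Y) :=
      Subgroup.card_le_of_le (inf_le_inf_right Y inf_le_left)
    have h4 := hupper A hA
    rw [(hcore' A hA).2] at h4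
    have h5 := card_mul_card_eq V (A ⊓ Y) (fun v hv w hw =>
      (ThompsonJ.isElementaryAbelian_comm hYel (hVY hv) hw.2).symm)
    have h6 : V ⊓ (A ⊓ Y) = A ⊓ V := by
      rw [inf_comm V, inf_assoc, inf_comm Y, inf_eq_left.2 hVY]
    rw [h6] at h5
    have hYeq : V ⊔ (A ⊓ Y) = Y := by
      refine Subgroup.eq_of_le_of_card_ge (sup_le hVY inf_le_right) ?_
      have e1 : Nat.card ↥(A ⊓ C) * Nat.card Y ≤ Nat.card A * Nat.card ↥(A ⊓ Y) := by
        rw [h2]; exact Nat.mul_le_mul h1 h3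
      have e2 : Nat.card ↥(A ⊓ C) * Nat.card Y * Nat.card ↥(A ⊓ V) ≤
          Nat.card ↥(A ⊓ C) * (Nat.card V * Nat.card ↥(A ⊓ Y)) :=
        calc Nat.card ↥(A ⊓ C) * Nat.card Y * Nat.card ↥(A ⊓ V)
            ≤ Nat.card A * Nat.card ↥(A ⊓ Y) * Nat.card ↥(A ⊓ V) := Nat.mul_le_mul_right _ e1
          _ = Nat.card A * Nat.card ↥(A ⊓ V) * Nat.card ↥(A ⊓ Y) := by ring
          _ ≤ Nat.card V * Nat.card ↥(A ⊓ C) * Nat.card ↥(A ⊓ Y) := Nat.mul_le_mul_right _ h4
          _ = _ := by ring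
      rw [h5, mul_assoc] at e2
      exact Nat.le_of_mul_le_mul_right (Nat.le_of_mul_le_mul_left e2 Nat.card_pos) Nat.card_pos
    intro a ha
    rw [hG₁, Subgroup.mem_comap]
    rintro _ ⟨y, hy, rfl⟩
    obtain ⟨v, hv, w, hw, rfl⟩ := Subgroup.mem_sup_of_normal_left.1 (hYeq.ge hy)
    have hv1 : QuotientGroup.mk' V v = 1 := (QuotientGroup.eq_one_iff v).2 hv
    rw [map_mul, hv1, one_mul, ← map_mul, ← map_mul, ThompsonJ.isElementaryAbelian_comm hA.elem ha hw.1]
  -- the normal closure of `J`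
  set N₀ := Subgroup.normalClosure (J : Set X) with hN₀
  haveI hN₀n : N₀.Normal := Subgroup.normalClosure_normal
  have hJN₀ : J ≤ N₀ := Subgroup.le_normalClosure
  have hN₀G₁ : N₀ ≤ G₁ :=
    haveI := hG₁n
    Subgroup.normalClosure_le_normal ((ThompsonJ.thompsonSubgroupOf_le_iff (K := G₁)).2 hAY)
  have hN₀top : N₀ ⊔ S = ⊤ := by
    by_contra hne
    exact hJQ ((le_inf hJS hJN₀).trans (hinfQ N₀ hN₀n (le_sup_left.trans (hle_M _ le_sup_right hne))))
  have hZ₀conj : ∀ s ∈ S, ∀ z ∈ Z₀, s * z * s⁻¹ ∈ Z₀ := fun s hs z hz => by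
    haveI hch : (omegaCenterThompson p S).Characteristic :=
      Subgroup.characteristic_iff_map_eq.2 (omegaCenterThompson_map_eq p)
    have h1 := Cores.normalizer_le_normalizer_map_subtype S (omegaCenterThompson p S)
      (Subgroup.le_normalizer hs)
    rw [ThompsonJ.map_omegaCenterThompson] at h1
    exact (Subgroup.mem_normalizer_iff.1 h1 z).1 hz
  set U := Z₀ ⊔ V with hU
  have hUY : U ≤ Y := sup_le hZ₀Y hVY
  haveI hUn : U.Normal := by
    refine Subgroup.normalizer_eq_top_iff.1 (top_le_iff.1 (hN₀top ▸ sup_le ?_ ?_))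
    · intro g hg
      refine CfsgLib.CoprimeAction.mem_normalizer_of_conj_mem fun u hu => ?_
      have := U.mul_mem (Subgroup.mem_sup_right (hG₁mem (hN₀G₁ hg) u (hUY hu))) hu
      simpa using this
    · intro g hg
      refine CfsgLib.CoprimeAction.mem_normalizer_of_conj_mem fun u hu => ?_
      obtain ⟨z, hz, v, hv, rfl⟩ := Subgroup.mem_sup_of_normal_right.1 hu
      rw [← conj_mul]
      exact Subgroup.mul_mem_sup (hZ₀conj g hg z hz) (hVn.conj_mem v hv g)
  have hUel : IsElementaryAbelian p U := ThompsonJ.isElementaryAbelian_mono hYel hUY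
  -- `[U, Q]` is centralized by `N₀`
  set D := ⁅U, Q⁆ with hD
  haveI hDn : D.Normal := Subgroup.commutator_normal _ _
  have hDZ : D ≤ Z₀ := Subgroup.commutator_le.2 fun u hu q hq => by
    obtain ⟨z, hz, v, hv, rfl⟩ := Subgroup.mem_sup_of_normal_right.1 hu
    rw [commutatorElement_def, show z * v * q * (z * v)⁻¹ * q⁻¹ = z * (v * q) * v⁻¹ * z⁻¹ * q⁻¹ by group,
      ← (hVQ hv).2 q hq, show z * (q * v) * v⁻¹ * z⁻¹ * q⁻¹ = z * (q * z⁻¹ * q⁻¹) by group]
    exact mul_mem hz (hZ₀conj q (hQS hq) _ (inv_mem hz))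
  have hN₀D : N₀ ≤ Subgroup.centralizer (D : Set X) := Subgroup.normalClosure_le_normal fun x hx d hd =>
    (hZ₀J (hDZ hd) x hx).symm
  set Q₂ := Q ⊓ Subgroup.centralizer (U : Set X) with hQ₂
  haveI hQ₂n : Q₂.Normal := inferInstance
  have hfix' : ∀ g ∈ N₀, ∀ q ∈ Q, q⁻¹ * (g * q * g⁻¹) ∈ Q₂ := by
    intro g hg q hq
    refine ⟨Q.mul_mem (Q.inv_mem hq) (hQn.conj_mem q hq g), fun u hu => ?_⟩
    have hgen : ∀ u ∈ U, g * q * g⁻¹ * u * (g * q * g⁻¹)⁻¹ = q * u * q⁻¹ := by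
      intro u hu
      set u' := g⁻¹ * u * g with hu'
      have hu'U : u' ∈ U := by simpa using hUn.conj_mem u hu g⁻¹
      set v' := g⁻¹ * u * g⁻¹⁻¹ * u⁻¹ with hv'
      have hv'V : v' ∈ V := hG₁mem (hN₀G₁ (inv_mem hg)) u (hUY hu)
      set d := q * u * q⁻¹ * u⁻¹ with hd
      have hdD : d ∈ D := by
        have h1 : ⁅q, u⁆ ∈ ⁅Q, U⁆ := Subgroup.commutator_mem_commutator hq hu
        rw [Subgroup.commutator_comm] at h1
        exact h1
      have hvd : v' * d = d * v' := ThompsonJ.isElementaryAbelian_comm hUel (Subgroup.mem_sup_right hv'V)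
        ((hDZ.trans le_sup_left) hdD)
      have hqv : q * v' * q⁻¹ = v' := by rw [(hVQ hv'V).2 q hq, mul_inv_cancel_right]
      have hgd : g * d * g⁻¹ = d := by rw [← hN₀D hg d hdD, mul_inv_cancel_right]
      have e1 : u' = v' * u := by simp [hu', hv']
      have e2 : q * u' * q⁻¹ = d * u' := by
        rw [e1, ← conj_mul, hqv, show q * u * q⁻¹ = d * u by simp [hd], ← mul_assoc, hvd, mul_assoc]
      calc g * q * g⁻¹ * u * (g * q * g⁻¹)⁻¹ = g * (q * u' * q⁻¹) * g⁻¹ := by simp [hu', mul_assoc]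
        _ = g * d * g⁻¹ * u := by rw [e2]; simp [hu', mul_assoc]
        _ = q * u * q⁻¹ := by rw [hgd]; simp [hd]
    have h1 := hgen u hu
    rw [mul_inv_eq_iff_eq_mul] at h1
    calc u * (q⁻¹ * (g * q * g⁻¹)) = q⁻¹ * (q * u * q⁻¹ * (g * q * g⁻¹)) := by group
      _ = q⁻¹ * (g * q * g⁻¹) * u := by rw [← h1]; group
  -- decomposition of `T ∩ N₀`
  have hJt : jTilde p S = S ⊓ Subgroup.centralizer (Z₀ : Set X) := rfl
  have hJJt : J ≤ jTilde p S := fun j hj => ⟨hJS hj, fun z hz => (hZ₀J hz j hj).symm⟩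
  have hQ₂Jt : Q₂ ≤ jTilde p S := fun c hc' => ⟨hQS hc'.1, fun z hz => hc'.2 z (Subgroup.mem_sup_left hz)⟩
  have hN₀PE : N₀.map π ≤ PE := by
    haveI hPEn : PE.Normal := by
      refine Subgroup.normalizer_eq_top_iff.1 (top_le_iff.1 (htop ▸ sup_le Subgroup.le_normalizer ?_))
      intro t ht
      refine CfsgLib.FFModules.LLemma.mem_normalizer_of_conj_le ?_
      rw [hPE, Subgroup.pointwise_smul_subset_iff]
      refine iSup_le fun i => Subgroup.pointwise_smul_subset_iff.1 ?_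
      obtain ⟨j, hj⟩ := hperm t ht i
      rw [hj]; exact le_iSup E j
    rw [Subgroup.map_le_iff_le_comap]
    refine Subgroup.normalClosure_le_normal (Subgroup.map_le_iff_le_comap.1 ?_)
    rw [hJcov]; exact inf_le_right
  have hdec : ∀ s ∈ S ⊓ N₀, ∃ j ∈ J, ∃ x ∈ Q ⊓ N₀, s = j * x := fun s hs => by
    have h1 : π s ∈ J.map π := hJcov.ge ⟨Subgroup.mem_map_of_mem π hs.1, hN₀PE ⟨s, hs.2, rfl⟩⟩
    obtain ⟨j, hj, e⟩ := h1
    refine ⟨j, hj, j⁻¹ * s, ⟨hTC ⟨S.mul_mem (S.inv_mem (hJS hj)) hs.1, hker ▸ MonoidHom.mem_ker.2 ?_⟩,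
      N₀.mul_mem (N₀.inv_mem (hJN₀ hj)) hs.2⟩, by simp⟩
    rw [map_mul, map_inv, e, inv_mul_cancel]
  have hjj : ∀ j ∈ J, ∀ j' ∈ J, j * j' * j⁻¹ * j'⁻¹ ∈ Q₂ := fun j hj j' hj' => by
    have h1 : π j * π j' = π j' * π j := comm_of_pgroup hSet.toBase hE htype (T'.2.to_le inf_le_left)
      inf_le_right (hJcov.le ⟨j, hj, rfl⟩) (hJcov.le ⟨j', hj', rfl⟩)
    have h2 : j * j' * j⁻¹ * j'⁻¹ ∈ C := hker ▸ MonoidHom.mem_ker.2 (by
      rw [map_mul, map_mul, map_mul, map_inv, map_inv, h1]; group)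
    refine ⟨hTC ⟨S.mul_mem (S.mul_mem (S.mul_mem (hJS hj) (hJS hj')) (S.inv_mem (hJS hj))) (S.inv_mem (hJS hj')), h2⟩,
      ?_⟩
    intro u hu
    obtain ⟨z, hz, v, hv, rfl⟩ := Subgroup.mem_sup_of_normal_right.1 hu
    have hz' : Commute z (j * j' * j⁻¹ * j'⁻¹) :=
      (hJJt (mul_mem (mul_mem (mul_mem hj hj') (inv_mem hj)) (inv_mem hj'))).2 z hz
    exact (hz'.mul_left (show Commute v _ from h2 v hv)).eq
  -- transfer in `N₀ / Q₂`
  haveI : (Q₂.subgroupOf N₀).Normal := Subgroup.normal_subgroupOf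
  set τ := QuotientGroup.mk' (Q₂.subgroupOf N₀) with hτ
  obtain ⟨P', hP'⟩ := CfsgLib.StronglyPEmbedded.exists_sylow_subgroupOf_eq T (A := N₀)
    (Subgroup.Normal.isSubnormal inferInstance)
  let P : Sylow p (N₀ ⧸ Q₂.subgroupOf N₀) := P'.mapSurjective (QuotientGroup.mk'_surjective _)
  have hPmem : ∀ y : N₀ ⧸ Q₂.subgroupOf N₀, y ∈ (P : Subgroup (N₀ ⧸ Q₂.subgroupOf N₀)) ↔
      ∃ s : N₀, (s : X) ∈ S ∧ τ s = y := fun y => by
    show y ∈ (P' : Subgroup N₀).map τ ↔ _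
    rw [hP']; exact Iff.rfl
  have hτ1 : ∀ (a : N₀), (a : X) ∈ Q₂ → τ a = 1 := fun a ha => (QuotientGroup.eq_one_iff a).2 ha
  have hxc : ∀ (m x : N₀), (x : X) ∈ Q → τ m * τ x = τ x * τ m := fun m x hx => by
    have h1 := hτ1 (x⁻¹ * (m * x * m⁻¹)) (hfix' m m.2 x hx)
    rw [map_mul, map_mul, map_mul, map_inv, map_inv, inv_mul_eq_one] at h1
    exact (eq_mul_inv_iff_mul_eq.1 h1).symm
  haveI : IsMulCommutative (P : Subgroup (N₀ ⧸ Q₂.subgroupOf N₀)) := by
    refine ⟨⟨fun a b => Subtype.ext ?_⟩⟩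
    obtain ⟨s, hs, hsa⟩ := (hPmem a).1 a.2
    obtain ⟨t, ht, htb⟩ := (hPmem b).1 b.2
    show (a : N₀ ⧸ Q₂.subgroupOf N₀) * b = b * a
    obtain ⟨j, hj, x, hx, hsx⟩ := hdec s ⟨hs, s.2⟩
    obtain ⟨j', hj', x', hx', htx⟩ := hdec t ⟨ht, t.2⟩
    have es : s = ⟨j, hJN₀ hj⟩ * ⟨x, hx.2⟩ := Subtype.ext hsx
    have et : t = ⟨j', hJN₀ hj'⟩ * ⟨x', hx'.2⟩ := Subtype.ext htx
    have hcc : Commute (τ ⟨j, hJN₀ hj⟩) (τ ⟨j', hJN₀ hj'⟩) := by
      have h1 := hτ1 (⟨j, hJN₀ hj⟩ * ⟨j', hJN₀ hj'⟩ * (⟨j, hJN₀ hj⟩ : N₀)⁻¹ * (⟨j', hJN₀ hj'⟩ : N₀)⁻¹)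
        (hjj j hj j' hj')
      rw [map_mul, map_mul, map_mul, map_inv, map_inv, mul_inv_eq_one, mul_inv_eq_iff_eq_mul] at h1
      exact h1
    rw [← hsa, ← htb, es, et, map_mul, map_mul]
    exact ((hcc.mul_right (hxc _ _ hx'.1)).mul_left
      ((Commute.symm (hxc _ _ hx.1)).mul_right (hxc _ _ hx'.1))).eq
  set J' := (J.subgroupOf N₀).map τ with hJ'
  have hnormJ : ∀ m : X, (∀ x ∈ S ⊓ N₀, m * x * m⁻¹ ∈ S ⊓ N₀) → ∀ x ∈ J, m * x * m⁻¹ ∈ J := fun m hm x hx => by
    have h0 : thompsonSubgroupOf p (S ⊓ N₀) = J := ThompsonJ.thompsonSubgroupOf_eq_of_le inf_le_left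
      (le_inf hJS hJN₀)
    rw [← h0] at hx ⊢
    exact (Subgroup.mem_normalizer_iff.1 (ThompsonJ.normalizer_le_normalizer_thompsonSubgroupOf p _
      (CfsgLib.CoprimeAction.mem_normalizer_of_conj_mem hm)) x).1 hx
  have hgen : Subgroup.normalClosure (J' : Set (N₀ ⧸ Q₂.subgroupOf N₀)) = ⊤ := by
    rw [eq_top_iff]
    intro y _
    obtain ⟨m, rfl⟩ := QuotientGroup.mk'_surjective (Q₂.subgroupOf N₀) y
    have hle : N₀ ≤ ((Subgroup.normalClosure (J' : Set (N₀ ⧸ Q₂.subgroupOf N₀))).comap τ).map N₀.subtype := by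
      refine (Subgroup.closure_le _).2 ?_
      intro w hw
      obtain ⟨a, ha, haw⟩ := Group.mem_conjugatesOfSet_iff.1 hw
      obtain ⟨g, rfl⟩ := isConj_iff.1 haw
      obtain ⟨k, hk, c, hc', rfl⟩ := Subgroup.mem_sup_of_normal_right.1
        ((normalizer_inf_sup_eq_top T N₀).ge (Subgroup.mem_top g))
      have ha' : k * (c * a * c⁻¹) * k⁻¹ = (k * c * k⁻¹) * (k * a * k⁻¹) * (k * c * k⁻¹)⁻¹ := by group
      have hkc : k * c * k⁻¹ ∈ N₀ := hN₀n.conj_mem c hc' k
      have hka : k * a * k⁻¹ ∈ J := hnormJ k (fun x hx => (Subgroup.mem_normalizer_iff.1 hk x).1 hx) a ha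
      refine ⟨⟨k * c * k⁻¹, hkc⟩ * ⟨k * a * k⁻¹, hJN₀ hka⟩ * (⟨k * c * k⁻¹, hkc⟩ : N₀)⁻¹, ?_, ?_⟩
      · show τ _ ∈ Subgroup.normalClosure (J' : Set (N₀ ⧸ Q₂.subgroupOf N₀))
        rw [map_mul, map_mul, map_inv]
        exact Subgroup.normalClosure_normal.conj_mem _ (Subgroup.subset_normalClosure
          (show τ ⟨k * a * k⁻¹, hJN₀ hka⟩ ∈ J' from ⟨⟨k * a * k⁻¹, hJN₀ hka⟩, hka, rfl⟩)) _
      · show k * c * k⁻¹ * (k * a * k⁻¹) * (k * c * k⁻¹)⁻¹ = k * c * a * (k * c)⁻¹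
        group
    obtain ⟨m', hm', hmm⟩ := hle m.2
    rwa [Subtype.ext hmm] at hm'
  have hQN : ∀ x ∈ Q ⊓ N₀, x ∈ jTilde p S := by
    intro x hx
    have key : τ ⟨x, hx.2⟩ ∈ J' := by
      refine CfsgLib.TwoGroupTricks.PushingUp.mem_of_central P J' ?_ ?_ hgen
        ((hPmem _).2 ⟨⟨x, hx.2⟩, hQS hx.1, rfl⟩) (Subgroup.mem_center_iff.2 fun y => ?_)
      · rintro _ ⟨a, ha, rfl⟩
        exact (hPmem _).2 ⟨a, hJS ha, rfl⟩
      · rintro y hy _ ⟨a, ha, rfl⟩
        obtain ⟨m, rfl⟩ := QuotientGroup.mk'_surjective (Q₂.subgroupOf N₀) y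
        rw [← map_inv, ← map_mul, ← map_mul]
        refine Subgroup.mem_map_of_mem _ (Subgroup.mem_subgroupOf.2 (hnormJ m (fun s hs => ?_) a ha))
        have h1 := (Subgroup.mem_normalizer_iff.1 hy (τ ⟨s, hs.2⟩)).1 ((hPmem _).2 ⟨⟨s, hs.2⟩, hs.1, rfl⟩)
        rw [← map_inv, ← map_mul, ← map_mul] at h1
        obtain ⟨t', ht', he⟩ := (hPmem _).1 h1
        obtain ⟨z, hz, hzb⟩ := (QuotientGroup.mk'_eq_mk' _).1 he
        have e : (t' : X) * (z : X) = (m : X) * s * (m : X)⁻¹ := congrArg Subtype.val hzb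
        exact ⟨e ▸ mul_mem ht' (hQS (Subgroup.mem_subgroupOf.1 hz).1),
          hN₀n.conj_mem s hs.2 m⟩
      · obtain ⟨m, rfl⟩ := QuotientGroup.mk'_surjective (Q₂.subgroupOf N₀) y
        exact hxc m ⟨x, hx.2⟩ hx.1
    obtain ⟨a, ha, he⟩ := key
    obtain ⟨z, hz, hzb⟩ := (QuotientGroup.mk'_eq_mk' _).1 he
    have h : (a : X) * (z : X) = x := congrArg Subtype.val hzb
    rw [← h]
    exact mul_mem (hJJt ha) (hQ₂Jt (Subgroup.mem_subgroupOf.1 hz))
  have hTN₀ : S ⊓ N₀ ≤ jTilde p S := fun s hs => by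
    obtain ⟨j, hj, x, hx, rfl⟩ := hdec s hs
    exact mul_mem (hJJt hj) (hQN x hx)
  -- the two cases
  by_cases hB : jTilde p S = S
  · right
    have hfixT : ∀ t ∈ (T' : Subgroup (X ⧸ C)), ∀ v ∈ fixedSub ((T' : Subgroup (X ⧸ C)) ⊓ ⨆ i, E i),
        t • (v : Additive ↥V) = v := by
      rintro _ ⟨t, ht, rfl⟩ v hv
      rw [← hPE, ← hJcov] at hv
      have hvJ := (hfix J v).1 hv
      have hvZ : (v.toMul : X) ∈ Z₀ := by
        refine ThompsonJ.mem_omegaOne ⟨?_, hvJ⟩ (hVel.2 _ v.toMul.2)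
        exact ThompsonJ.le_thompsonSubgroupOf hA₀ (hA₀.mem_of_centralizes (hVS v.toMul.2)
          (hVel.2 _ v.toMul.2) (Subgroup.centralizer_le (ThompsonJ.le_thompsonSubgroupOf hA₀) hvJ))
      have htZ : t ∈ jTilde p S := hB.ge ht
      refine Additive.toMul.injective (Subtype.ext ?_)
      rw [hsmul, ← htZ.2 _ hvZ, mul_inv_cancel_right]
    obtain ⟨F, hF, hF', n, hn, hcard, ⟨e⟩⟩ :=
      exists_sl2_of_fixes hSet.toBase hp2 hr hE htop hconj hperm htype hfixT
    let f : X →* Matrix.ProjectiveSpecialLinearGroup (Fin 2) F :=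
      (QuotientGroup.mk' (Subgroup.center (Matrix.SpecialLinearGroup (Fin 2) F))).comp (e.toMonoidHom.comp π)
    have hf : Function.Surjective f :=
      (QuotientGroup.mk'_surjective _).comp (e.surjective.comp hπ)
    refine ⟨⟨f.ker, inferInstance, F, hF, hF', n, hn, hcard,
      ⟨QuotientGroup.quotientKerEquivOfSurjective f hf⟩⟩, ?_⟩
    have hcomp : IsSL2Comp p (⊤ : Subgroup (X ⧸ C)) (Additive ↥V) :=
      comp_eq_top_of_fixes hSet.toBase hp2 hr hE htop hconj hperm htype hfixT ▸ htype ⟨0, hr⟩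
    obtain ⟨hf1, hf2, hf3, hf4⟩ := sylow_facts hSet.toBase hp2 hcomp
    have hSC : S ⊓ C = Q := le_antisymm hTC (le_inf hQS hQC)
    have hfixeq : ∀ g ∈ S, g ∉ Q → ∀ v ∈ V, g * v = v * g → v ∈ Subgroup.centralizer (S : Set X) := by
      intro g hg hgQ v hv hgv
      refine (hfix S (Additive.ofMul ⟨v, hv⟩)).1 (hf1 _ ⟨g, hg, rfl⟩ (fun e => hgQ (hTC ⟨hg, ?_⟩)) _ ?_)
      · rw [← hker]; exact MonoidHom.mem_ker.2 e
      · refine Additive.toMul.injective (Subtype.ext ?_)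
        rw [hsmul]
        show g * v * g⁻¹ = v
        rw [hgv, mul_inv_cancel_right]
    let Mv : Subgroup X :=
      { carrier := {z | ∃ w ∈ moves (T' : Subgroup (X ⧸ C)) (Additive ↥V), (w.toMul : X) = z}
        one_mem' := ⟨0, zero_mem _, rfl⟩
        mul_mem' := by
          rintro _ _ ⟨w, hw, rfl⟩ ⟨w', hw', rfl⟩
          exact ⟨w + w', add_mem hw hw', rfl⟩
        inv_mem' := by
          rintro _ ⟨w, hw, rfl⟩
          exact ⟨-w, neg_mem hw, rfl⟩ }
    have hVSM : ⁅V, S⁆ ≤ Mv := Subgroup.commutator_le.2 fun v hv s hs => by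
      refine ⟨Additive.ofMul (⟨v, hv⟩ : ↥V) - π s • Additive.ofMul (⟨v, hv⟩ : ↥V), ?_, ?_⟩
      · rw [← neg_sub]
        exact neg_mem (sub_mem_moves (show π s ∈ (T' : Subgroup (X ⧸ C)) from ⟨s, hs, rfl⟩) _)
      · show v / ((π s • Additive.ofMul (⟨v, hv⟩ : ↥V)).toMul : X) = _
        rw [hsmul, commutatorElement_def, div_eq_mul_inv]
        show v * (s * v * s⁻¹)⁻¹ = _
        group
    have hcomm : ⁅V, S⁆ ≤ V ⊓ Subgroup.centralizer (S : Set X) := fun z hz => by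
      obtain ⟨w, hw, rfl⟩ := hVSM hz
      exact ⟨w.toMul.2, (hfix S w).1 (hf2 hw)⟩
    have hSQ : ¬ S ≤ Q := fun h => hJQ (hJS.trans h)
    refine ⟨hB, hTC, hZV, hCM, ?_, hfixeq, hcomm, ?_, ?_, ?_⟩
    · rw [← hcardfix S, ← Nat.card_congr (Additive.toMul (α := ↥V)), hf3, hT', hcardmap S, hSC]
      ring
    · refine (Subgroup.eq_bot_iff_forall _).2 ?_
      rintro z ⟨hz, hzc⟩
      obtain ⟨w, hw, rfl⟩ := hVSM hz
      have h1 := (hfix ⊤ w).2 hzc
      rw [Subgroup.map_top_of_surjective π hπ] at h1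
      have h2 : w = 0 := by
        rw [← AddSubgroup.mem_bot, ← hf4]; exact ⟨hw, h1⟩
      rw [h2]; rfl
    · intro g z hz hzQ hgz
      set L := V ⊓ Subgroup.centralizer (S : Set X) with hL
      have hNne : Subgroup.normalizer (L : Set X) ≠ ⊤ := fun e => by
        haveI : L.Normal := Subgroup.normalizer_eq_top_iff.1 e
        have h1 : ZT ≤ L := le_inf hZV ((ThompsonJ.omegaOne_le p _).trans inf_le_right)
        have h2 := hinfQ (Subgroup.centralizer (L : Set X)) inferInstance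
          ((Subgroup.centralizer_le h1).trans hCZ)
        exact hSQ fun s hs => h2 ⟨hs, fun v hv => (hv.2 s hs).symm⟩
      refine hle_M _ (fun s hs => ?_) hNne ?_
      · refine CfsgLib.CoprimeAction.mem_normalizer_of_conj_mem fun v hv => ?_
        rwa [hv.2 s hs, mul_inv_cancel_right]
      · refine CfsgLib.CoprimeAction.mem_normalizer_of_conj_mem fun v hv => ?_
        refine ⟨hVn.conj_mem v hv.1 g, hfixeq _ hgz (fun h => hzQ ?_) _ (hVn.conj_mem v hv.1 g) ?_⟩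
        · simpa [mul_assoc] using hQn.conj_mem _ h g⁻¹
        · rw [conj_mul, conj_mul, hv.2 z hz]
    · by_contra hno'
      push Not at hno'
      exact hJQ (ThompsonJ.thompsonSubgroupOf_le_iff.2 hno')
  · left
    have hJtn : ∀ s ∈ S, ∀ b ∈ jTilde p S, s * b * s⁻¹ ∈ jTilde p S := fun s hs b hb =>
      (Subgroup.mem_normalizer_iff.1 (normalizer_le_jTilde S (Subgroup.le_normalizer hs)) b).1 hb
    have hsmod : S ⊓ (N₀ ⊔ jTilde p S) = jTilde p S := by
      refine le_antisymm ?_ (le_inf inf_le_left le_sup_right)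
      rintro x ⟨hxS, hx⟩
      obtain ⟨m, hm, b, hb, rfl⟩ := Subgroup.mem_sup_of_normal_left.1 hx
      refine mul_mem (hTN₀ ⟨?_, hm⟩) hb
      simpa using S.mul_mem hxS (S.inv_mem (show b ∈ S from hb.1))
    refine ⟨N₀ ⊔ jTilde p S, ?_, ?_, ?_, hsmod⟩
    · refine Subgroup.normalizer_eq_top_iff.1 (top_le_iff.1 (hN₀top ▸
        sup_le (le_sup_left.trans Subgroup.le_normalizer) ?_))
      intro s hs
      refine CfsgLib.CoprimeAction.mem_normalizer_of_conj_mem fun x hx => ?_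
      obtain ⟨m, hm, b, hb, rfl⟩ := Subgroup.mem_sup_of_normal_left.1 hx
      rw [← conj_mul]
      exact Subgroup.mul_mem_sup (hN₀n.conj_mem m hm s) (hJtn s hs b hb)
    · intro e
      rw [e, inf_top_eq] at hsmod
      exact hB hsmod.symm
    · exact top_le_iff.1 (hN₀top ▸ sup_le_sup_right le_sup_left S)

/-- The dichotomy, when no characteristic subgroup of `T` is normal. -/
theorem dichotomy (T : Sylow p X) (hp2 : p ≠ 2)
    (hc : Subgroup.centralizer (pCore p X : Set X) ≤ pCore p X) {M : Subgroup X} (hM : IsCoatom M)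
    (hTM : (T : Subgroup X) ≤ M)
    (huniq : ∀ M' : Subgroup X, IsCoatom M' ∧ (T : Subgroup X) ≤ M' → M' = M)
    (hno : ∀ K : Subgroup ↥(T : Subgroup X), K ≠ ⊥ → K.Characteristic →
      ¬ (K.map (T : Subgroup X).subtype).Normal) :
    (∃ N : Subgroup X, N.Normal ∧ N ≠ ⊤ ∧ N ⊔ (T : Subgroup X) = ⊤ ∧
      (T : Subgroup X) ⊓ N = jTilde p (T : Subgroup X)) ∨
    ∃ (K : Subgroup X) (_ : K.Normal) (F : Type) (_ : Field F) (_ : Fintype F) (n : ℕ),
      1 ≤ n ∧ Fintype.card F = p ^ n ∧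
        Nonempty (X ⧸ K ≃* Matrix.ProjectiveSpecialLinearGroup (Fin 2) F) := by
  set S := (T : Subgroup X) with hS
  have hSne : Nontrivial S := by
    refine (Subgroup.nontrivial_iff_ne_bot S).2 fun e => hM.1 (top_le_iff.1 fun x _ => ?_)
    have h1 : pCore p X = ⊥ := le_bot_iff.1 ((CfsgLib.Cores.pCore_le_sylow T).trans e.le)
    have h2 : x ∈ pCore p X := hc (fun q hq => by
      rw [h1, Subgroup.coe_bot, Set.mem_singleton_iff] at hq
      rw [hq, one_mul, mul_one])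
    rw [h1, Subgroup.mem_bot] at h2
    rw [h2]
    exact M.one_mem
  haveI : Nontrivial (Subgroup.center S) := T.2.center_nontrivial
  have hne : omegaOne p (Subgroup.center S) ≠ ⊥ := by
    refine ThompsonJ.omegaOne_ne_bot (p := p) ?_
    obtain ⟨k, hk⟩ := IsPGroup.iff_card.1 (T.2.to_subgroup (Subgroup.center S))
    rw [hk]
    refine dvd_pow_self p fun e' => ?_
    rw [e', pow_zero] at hk
    exact absurd hk (Finite.one_lt_card (α := Subgroup.center S)).ne'
  refine (dichotomy' T hp2 hc hM hTM huniq ?_ ?_).imp_right And.left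
  · have e : (omegaOne p (Subgroup.center S)).map S.subtype = omegaOneCenter p S := by
      rw [ThompsonJ.map_omegaOne S.subtype_injective]
      congr 1
      refine le_antisymm ?_ ?_
      · rintro _ ⟨x, hx, rfl⟩
        exact ⟨x.2, fun y hy => congrArg Subtype.val (Subgroup.mem_center_iff.1 hx ⟨y, hy⟩)⟩
      · rintro y ⟨hy1, hy2⟩
        exact ⟨⟨y, hy1⟩, Subgroup.mem_center_iff.2 fun g => Subtype.ext (hy2 g g.2), rfl⟩
    rw [← e]
    exact hno _ hne (omegaOne_center_characteristic p S)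
  · rw [← map_jTildeIn]
    refine hno _ (fun e => hne (le_bot_iff.1 ?_)) (jTildeIn_characteristic p S)
    rw [← e]
    exact fun z hz w _ => Subgroup.mem_center_iff.1 (ThompsonJ.omegaOne_le p _ hz) w

end CfsgLib.PushUp.OddTransfer
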