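import Cfsg.Agent.Lib.PushUp.OddTransfer.Component
import Cfsg.Agent.Lib.FFModules.MinimalParabolic.Recognition
import Cfsg.Agent.Lib.FFModules.MinimalParabolic.LocalFacts

/-!
Odd characteristic: offenders inside a Sylow subgroup of the product of components generate it.
-/

set_option autoImplicit false
set_option linter.unusedSectionVars false
set_option linter.style.haveILetI false

namespace CfsgLib.PushUp.OddTransfer

open CfsgLib.FFModules.SL2Pair CfsgLib.FFModules.MinimalParabolic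
open CfsgLib.ClassicalLinear (upS upS_coe upS_add upS_injective mem_upperSL)
open CfsgLib.PushUp.RankOne (negS negS_mulVec negS_comm negS_sq)
open scoped MatrixGroups Matrix Pointwise

variable {H W : Type*} [Group H] [AddCommGroup W] [DistribMulAction H W]
variable {r : ℕ} {E : Fin r → Subgroup H}

/-- Elements of the product move vectors into the sum of the moved parts. -/
theorem sub_mem_iSup_moves {g : H} (hg : g ∈ ⨆ i, E i) : ∀ v : W, g • v - v ∈ ⨆ i, moves (E i) W := by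
  induction hg using Subgroup.iSup_induction' with
  | hp i x hx => exact fun v => AddSubgroup.mem_iSup_of_mem i (sub_mem_moves hx v)
  | h1 => intro v; rw [one_smul, sub_self]; exact zero_mem _
  | hmul a b _ _ ha hb =>
    intro v
    have := add_mem (ha (b • v)) (hb v)
    rwa [sub_add_sub_cancel, ← mul_smul] at this

/-- The action of the product on one component. -/
theorem exists_compHom (hE : IsComponents E W) (i : Fin r) {F : Type} [Field F] {ρ : E i ≃* SL(2, F)}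
    {ψ : W →+ (Fin 2 → F)} (hψ : Function.Surjective ψ) (hker : ∀ v, ψ v = 0 ↔ v ∈ fixedSub (E i))
    (heq : ∀ (g : E i) (v : W), ψ ((g : H) • v) = ((ρ g : SL(2, F)) : Matrix (Fin 2) (Fin 2) F) *ᵥ ψ v) :
    ∃ φ : ↥(⨆ j, E j) →* SL(2, F),
      (∀ (g : ↥(⨆ j, E j)) (v : W), ψ ((g : H) • v) = ((φ g : SL(2, F)) : Matrix (Fin 2) (Fin 2) F) *ᵥ ψ v) ∧
      ∀ (g : ↥(⨆ j, E j)), φ g = 1 → ∀ m ∈ moves (E i) W, (g : H) • m = m := by
  choose hinv e he he1 he2 using fun (u : ↥(⨆ j, E j)) => exists_proj hE i u.2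
  have h2 : ∀ (u : ↥(⨆ j, E j)) (v : W), ψ ((u : H) • v) =
      ((ρ ⟨e u, he u⟩ : SL(2, F)) : Matrix (Fin 2) (Fin 2) F) *ᵥ ψ v := fun u v => by
    rw [← heq ⟨e u, he u⟩, ← sub_eq_zero, ← map_sub]; exact (hker _).2 (he1 u v)
  refine ⟨MonoidHom.mk' (fun u => ρ ⟨e u, he u⟩) fun u u' => ?_, h2, fun g hg m hm => ?_⟩
  · refine rho_eq hψ heq fun v => ?_
    rw [heq, ← h2, Subgroup.coe_mul, mul_smul, h2, h2, Matrix.mulVec_mulVec,
      Matrix.SpecialLinearGroup.coe_mul]
  · have h1 : (⟨e g, he g⟩ : E i) = 1 := ρ.injective (hg.trans (map_one ρ).symm)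
    rw [he2 g m hm, show e g = 1 from congrArg Subtype.val h1, one_smul]

variable [Finite H] [Finite W] {p : ℕ} [Fact p.Prime] {T : Sylow p H} {M : Subgroup H}

theorem eq_zero_of_eq_neg (hexp : ∀ v : W, p • v = 0) (hp2 : p ≠ 2) {v : W} (hv : v = -v) : v = 0 := by
  have h1 : (2 : ℕ) • v = 0 := by rw [two_nsmul]; exact eq_neg_iff_add_eq_zero.1 hv
  have h2 : addOrderOf v ∣ Nat.gcd 2 p :=
    Nat.dvd_gcd (addOrderOf_dvd_of_nsmul_eq_zero h1) (addOrderOf_dvd_of_nsmul_eq_zero (hexp v))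
  rw [(Nat.coprime_primes Nat.prime_two Fact.out).2 (Ne.symm hp2)] at h2
  exact AddMonoid.addOrderOf_eq_one_iff.1 (Nat.dvd_one.1 h2)

/-- The moved part of a component has no fixed vector. -/
theorem eq_zero_of_moves_of_fixed (hexp : ∀ v : W, p • v = 0) (hp2 : p ≠ 2) {E₀ : Subgroup H}
    (htype : IsSL2Comp p E₀ W) {m : W} (hm : m ∈ moves E₀ W) (hf : m ∈ fixedSub E₀) : m = 0 := by
  obtain ⟨F, hF, hF', n, ρ, ψ, -, -, hψ, hker, heq⟩ := htype
  obtain ⟨z, hz⟩ := ρ.surjective (negS F)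
  have h1 : ∀ x ∈ moves E₀ W, (z : H) • x + x = 0 := by
    intro x hx
    induction hx using AddSubgroup.closure_induction with
    | mem x hx =>
      obtain ⟨e, he, u, rfl⟩ := hx
      have h1 : (z : H) • u + u ∈ fixedSub E₀ := (hker _).1 (by
        rw [map_add, heq, hz, negS_mulVec, neg_add_cancel])
      have h2 := h1 e he
      have hc : (z : H) * e = e * z := by
        have : z * ⟨e, he⟩ = ⟨e, he⟩ * z := ρ.injective (by rw [map_mul, map_mul, hz, negS_comm])
        exact congrArg Subtype.val this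
      rw [smul_sub, smul_smul, hc, mul_smul]
      rw [smul_add] at h2
      linear_combination (norm := abel) h2
    | zero => rw [smul_zero, add_zero]
    | add a b _ _ ha hb => rw [smul_add]; linear_combination (norm := abel) ha + hb
    | neg a _ ha => rw [smul_neg]; linear_combination (norm := abel) -ha
  refine eq_zero_of_eq_neg hexp hp2 (eq_neg_of_add_eq_zero_left ?_)
  have := h1 m hm
  rwa [hf _ z.2] at this

theorem eq_zero_of_iSup_moves (h : Base p T M W) (hp2 : p ≠ 2) (hE : IsComponents E W)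
    (htype : ∀ i, IsSL2Comp p (E i) W) {d : W} (hd : d ∈ ⨆ i, moves (E i) W)
    (hf : ∀ i, d ∈ fixedSub (E i)) : d = 0 := by
  classical
  suffices key : ∀ s : Finset (Fin r), ∀ d ∈ (⨆ i ∈ s, moves (E i) W : AddSubgroup W),
      (∀ i, d ∈ fixedSub (E i)) → d = 0 from key Finset.univ d (by simpa using hd) hf
  intro s
  induction s using Finset.induction_on with
  | empty => intro d hd _; simpa using hd
  | insert i s hi ih =>
    intro d hd hf
    rw [Finset.iSup_insert] at hd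
    obtain ⟨a, ha, b, hb, rfl⟩ := AddSubgroup.mem_sup.1 hd
    have hb' : b ∈ fixedSub (E i) :=
      (iSup₂_le fun j hj => hE.cross j i (fun e => hi (e ▸ hj)) :
        (⨆ j ∈ s, moves (E j) W : AddSubgroup W) ≤ fixedSub (E i)) hb
    have ha0 : a = 0 := eq_zero_of_moves_of_fixed h.exponent hp2 (htype i) ha (by
      simpa using sub_mem (hf i) hb')
    rw [ha0, zero_add]
    exact ih b hb fun j => by simpa [ha0] using hf j

/-- A `p`-subgroup of the product acts quadratically. -/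
theorem quad_of_le_iSup (h : Base p T M W) (hp2 : p ≠ 2) (hE : IsComponents E W)
    (htype : ∀ i, IsSL2Comp p (E i) W) {U : Subgroup H} (hU : IsPGroup p U) (hUE : U ≤ ⨆ i, E i) :
    IsQuad p U W := by
  refine ⟨hU, fun a ha v b hb => sub_eq_zero.1 (eq_zero_of_iSup_moves h hp2 hE htype
    (sub_mem_iSup_moves (hUE hb) _) fun i => ?_)⟩
  obtain ⟨F, hF, hF', n, ρ, ψ, -, hcard, hψ, hker, heq⟩ := htype i
  haveI := charP_of_card (p := p) hcard
  obtain ⟨φ, hφ, -⟩ := exists_compHom hE i hψ hker heq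
  obtain ⟨k, hk⟩ := exists_conj_le_upper (IsPGroup.of_surjective hU
    (φ.comp (Subgroup.inclusion hUE)).rangeRestrict (MonoidHom.rangeRestrict_surjective _))
  obtain ⟨s, hs⟩ := mem_upperSL.1 (hk _ ⟨⟨a, ha⟩, rfl⟩)
  obtain ⟨s', hs'⟩ := mem_upperSL.1 (hk _ ⟨⟨b, hb⟩, rfl⟩)
  have ea : φ ⟨a, hUE ha⟩ = k * upS s * k⁻¹ := by
    rw [hs]; simp [mul_assoc, Subgroup.inclusion]
  have eb : φ ⟨b, hUE hb⟩ = k * upS s' * k⁻¹ := by
    rw [hs']; simp [mul_assoc, Subgroup.inclusion]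
  rw [← hker, map_sub, sub_eq_zero, hφ ⟨b, hUE hb⟩ (a • v - v), map_sub, hφ ⟨a, hUE ha⟩ v, ea, eb]
  simp only [Matrix.SpecialLinearGroup.coe_mul, ← Matrix.mulVec_mulVec]
  set w := ((k⁻¹ : SL(2, F)) : Matrix (Fin 2) (Fin 2) F) *ᵥ ψ v with hw
  have hkk : ∀ u : Fin 2 → F, (k : Matrix (Fin 2) (Fin 2) F) *ᵥ
      (((k⁻¹ : SL(2, F)) : Matrix (Fin 2) (Fin 2) F) *ᵥ u) = u := fun u => by
    rw [Matrix.mulVec_mulVec, ← Matrix.SpecialLinearGroup.coe_mul, mul_inv_cancel,
      Matrix.SpecialLinearGroup.coe_one, Matrix.one_mulVec]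
  have hkk' : ∀ u : Fin 2 → F, ((k⁻¹ : SL(2, F)) : Matrix (Fin 2) (Fin 2) F) *ᵥ
      ((k : Matrix (Fin 2) (Fin 2) F) *ᵥ u) = u := fun u => by
    rw [Matrix.mulVec_mulVec, ← Matrix.SpecialLinearGroup.coe_mul, inv_mul_cancel,
      Matrix.SpecialLinearGroup.coe_one, Matrix.one_mulVec]
  have hv : ψ v = (k : Matrix (Fin 2) (Fin 2) F) *ᵥ w := (hkk _).symm
  rw [hv, ← Matrix.mulVec_sub, hkk']
  congr 1
  funext c
  fin_cases c <;> simp [upS_coe, Matrix.mulVec, dotProduct, Fin.sum_univ_two]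

/-- A nontrivial `T`-invariant subgroup of `T ⊓ ⨆ E` has the fixed points of the whole. -/
theorem fixed_of_invariant (h : Base p T M W) (hp2 : p ≠ 2) (hE : IsComponents E W)
    (hconj : ∀ i j, ∃ t ∈ (T : Subgroup H), MulAut.conj t • E i = E j)
    (htype : ∀ i, IsSL2Comp p (E i) W) {J : Subgroup H} (hJU : J ≤ (T : Subgroup H) ⊓ ⨆ i, E i)
    (hJ : J ≠ ⊥) (hJT : ∀ t ∈ (T : Subgroup H), ∀ g ∈ J, t * g * t⁻¹ ∈ J) {v : W}
    (hv : v ∈ fixedSub J) : v ∈ fixedSub ((T : Subgroup H) ⊓ ⨆ i, E i) := by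
  intro u hu
  refine sub_eq_zero.1 (eq_zero_of_iSup_moves h hp2 hE htype (sub_mem_iSup_moves hu.2 v) fun i => ?_)
  -- some element of `J` acts nontrivially on the component
  obtain ⟨g, hg, m, hm, hgm⟩ : ∃ g ∈ J, ∃ m ∈ moves (E i) W, g • m ≠ m := by
    by_contra hno
    push Not at hno
    refine hJ ((Subgroup.eq_bot_iff_forall _).2 fun g hg => h.faithful g fun w => ?_)
    obtain ⟨c, hc, m, hm, rfl⟩ := AddSubgroup.mem_sup.1
      (show w ∈ fixedSub (⨆ i, E i) ⊔ ⨆ i, moves (E i) W from hE.fix_sup_moves ▸ AddSubgroup.mem_top w)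
    rw [smul_add, hc g (hJU hg).2]
    congr 1
    induction hm using AddSubgroup.iSup_induction' with
    | hp j x hx =>
      obtain ⟨t, ht, e⟩ := hconj i j
      have hx' : t⁻¹ • x ∈ moves (E i) W := moves_smul (E i) t (e.symm ▸ hx)
      have h1 := hno (t⁻¹ * g * t⁻¹⁻¹) (hJT _ (inv_mem ht) g hg) _ hx'
      rw [inv_inv, mul_smul, mul_smul, smul_inv_smul] at h1
      exact MulAction.injective t⁻¹ h1
    | h1 => exact smul_zero g
    | hadd a b _ _ ha hb => rw [smul_add, ha, hb]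
  obtain ⟨F, hF, hF', n, ρ, ψ, -, hcard, hψ, hker, heq⟩ := htype i
  haveI := charP_of_card (p := p) hcard
  obtain ⟨φ, hφ, hφ1⟩ := exists_compHom hE i hψ hker heq
  have hle : (T : Subgroup H) ⊓ (⨆ i, E i) ≤ ⨆ i, E i := inf_le_right
  obtain ⟨k, hk⟩ := exists_conj_le_upper (IsPGroup.of_surjective (T.2.to_le inf_le_left)
    (φ.comp (Subgroup.inclusion hle)).rangeRestrict (MonoidHom.rangeRestrict_surjective _))
  have hform : ∀ x (hx : x ∈ (T : Subgroup H) ⊓ ⨆ i, E i), ∃ s, φ ⟨x, hx.2⟩ = k * upS s * k⁻¹ :=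
    fun x hx => by
      obtain ⟨s, hs⟩ := mem_upperSL.1 (hk _ ⟨⟨x, hx⟩, rfl⟩)
      exact ⟨s, by rw [hs]; simp [mul_assoc, Subgroup.inclusion]⟩
  obtain ⟨s₀, hs₀⟩ := hform g (hJU hg)
  have hs₀0 : s₀ ≠ 0 := fun e => hgm (hφ1 _ (by
    rw [hs₀, e, CfsgLib.SL2.upS_zero, mul_one, mul_inv_cancel]) m hm)
  obtain ⟨s, hs⟩ := hform u hu
  set w := ((k⁻¹ : SL(2, F)) : Matrix (Fin 2) (Fin 2) F) *ᵥ ψ v with hw
  have h1 : ((upS s₀ : SL(2, F)) : Matrix (Fin 2) (Fin 2) F) *ᵥ w = w := by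
    have h2 := hφ ⟨g, (hJU hg).2⟩ v
    rw [show ((⟨g, (hJU hg).2⟩ : ↥(⨆ i, E i)) : H) • v = v from hv g hg, hs₀] at h2
    simp only [Matrix.SpecialLinearGroup.coe_mul, ← Matrix.mulVec_mulVec] at h2
    have h3 := congrArg (fun x => ((k⁻¹ : SL(2, F)) : Matrix (Fin 2) (Fin 2) F) *ᵥ x) h2
    simp only [← hw] at h3
    rw [Matrix.mulVec_mulVec, ← Matrix.SpecialLinearGroup.coe_mul, inv_mul_cancel,
      Matrix.SpecialLinearGroup.coe_one, Matrix.one_mulVec] at h3
    exact h3.symm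
  have hw1 : w 1 = 0 := by
    have := congrFun h1 0
    simp [upS_coe, Matrix.mulVec, dotProduct, Fin.sum_univ_two] at this
    exact this.resolve_left hs₀0
  rw [← hker, map_sub, sub_eq_zero, hφ ⟨u, hu.2⟩ v, hs]
  simp only [Matrix.SpecialLinearGroup.coe_mul, ← Matrix.mulVec_mulVec, ← hw]
  have h2 : ((upS s : SL(2, F)) : Matrix (Fin 2) (Fin 2) F) *ᵥ w = w := by
    funext c; fin_cases c <;> simp [upS_coe, Matrix.mulVec, dotProduct, Fin.sum_univ_two, hw1]
  rw [h2, hw, Matrix.mulVec_mulVec, ← Matrix.SpecialLinearGroup.coe_mul, mul_inv_cancel,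
    Matrix.SpecialLinearGroup.coe_one, Matrix.one_mulVec]

theorem addCard_sup_mul (X Y : AddSubgroup W) :
    Nat.card X * Nat.card Y = Nat.card ↥(X ⊔ Y) * Nat.card ↥(X ⊓ Y) := (card_sup_mul X Y).symm

/-- Offenders in `T ⊓ ⨆ E` whose join is `T`-invariant generate it. -/
theorem iSup_eq_inf (h : Setting p T M W) (hp2 : p ≠ 2) (hE : IsComponents E W)
    (hconj : ∀ i j, ∃ t ∈ (T : Subgroup H), MulAut.conj t • E i = E j)
    (htype : ∀ i, IsSL2Comp p (E i) W) {ι : Type*} [Finite ι] (A : ι → Subgroup H)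
    (hA : ∀ j, A j ≤ (T : Subgroup H) ⊓ ⨆ i, E i) (hμ : ∀ j, Nat.card W ≤ mu (A j) W)
    (hne : (⨆ j, A j) ≠ ⊥) (hT : ∀ t ∈ (T : Subgroup H), ∀ g ∈ ⨆ j, A j, t * g * t⁻¹ ∈ ⨆ j, A j) :
    (⨆ j, A j) = (T : Subgroup H) ⊓ ⨆ i, E i := by
  classical
  set U := (T : Subgroup H) ⊓ ⨆ i, E i with hU
  have hquad : IsQuad p U W := quad_of_le_iSup h.toBase hp2 hE htype (T.2.to_le inf_le_left) inf_le_right
  have hcomm : ∀ X : Subgroup H, X ≤ U → ∀ Y : Subgroup H, Y ≤ U →
      Y ≤ Subgroup.centralizer (X : Set H) := fun X hX Y hY y hy x hx =>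
    comm_of_pgroup h.toBase hE htype (T.2.to_le inf_le_left) inf_le_right (hX hx) (hY hy)
  haveI := Fintype.ofFinite ι
  have key : ∀ s : Finset ι, Nat.card W ≤ mu (⨆ j ∈ s, A j) W := by
    intro s
    induction s using Finset.induction_on with
    | empty => rw [show (⨆ j ∈ (∅ : Finset ι), A j) = ⊥ by simp, mu_bot]
    | insert j s hj ih =>
      rw [Finset.iSup_insert]
      set B := ⨆ j ∈ s, A j
      have hB : B ≤ U := iSup₂_le fun j _ => hA j
      have hno : mu (A j ⊓ B) W ≤ Nat.card W := noOver h _ (hquad.mono (inf_le_left.trans (hA j)))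
      have hcardH : Nat.card (A j) * Nat.card B = Nat.card ↥(A j ⊔ B) * Nat.card ↥(A j ⊓ B) :=
        CfsgLib.FFModules.MinimalParabolic.card_mul_card_eq _ _ (hcomm B hB _ (hA j))
      have hfix : (fixedSub (A j) : AddSubgroup W) ⊓ fixedSub B = fixedSub (A j ⊔ B) := by
        ext v
        exact mem_fixedSub_sup.symm
      have hcardW := addCard_sup_mul (fixedSub (A j) : AddSubgroup W) (fixedSub B)
      rw [hfix] at hcardW
      have hsup : Nat.card ↥((fixedSub (A j) : AddSubgroup W) ⊔ fixedSub B) ≤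
          Nat.card (fixedSub (A j ⊓ B) : AddSubgroup W) :=
        AddSubgroup.card_le_of_le (sup_le (fixedSub_anti inf_le_left) (fixedSub_anti inf_le_right))
      have hW : 0 < Nat.card W := Nat.card_pos
      simp only [mu] at *
      refine Nat.le_of_mul_le_mul_left ?_ hW
      calc Nat.card W * Nat.card W
          ≤ (Nat.card (A j) * Nat.card (fixedSub (A j) : AddSubgroup W)) *
            (Nat.card B * Nat.card (fixedSub B : AddSubgroup W)) := Nat.mul_le_mul (hμ j) ih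
        _ = (Nat.card ↥(A j ⊔ B) * Nat.card (fixedSub (A j ⊔ B) : AddSubgroup W)) *
            (Nat.card ↥(A j ⊓ B) * Nat.card ↥((fixedSub (A j) : AddSubgroup W) ⊔ fixedSub B)) := by
          rw [mul_mul_mul_comm, hcardH, hcardW]; ring
        _ ≤ _ := by
          rw [mul_comm (Nat.card W)]
          exact Nat.mul_le_mul_left _ ((Nat.mul_le_mul_left _ hsup).trans hno)
  set J := ⨆ j, A j with hJ
  have hJU : J ≤ U := iSup_le hA
  have hμJ : Nat.card W ≤ mu J W := by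
    have := key Finset.univ
    simpa using this
  have hfix : (fixedSub J : AddSubgroup W) = fixedSub U := le_antisymm
    (fun v hv => fixed_of_invariant h.toBase hp2 hE hconj htype hJU hne hT hv) (fixedSub_anti hJU)
  refine Subgroup.eq_of_le_of_card_ge hJU ?_
  have h1 := (noOver h U hquad).trans hμJ
  simp only [mu, hfix] at h1
  exact Nat.le_of_mul_le_mul_right h1 Nat.card_pos

end CfsgLib.PushUp.OddTransfer
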