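import Cfsg.Agent.Lib.PushUp.OddTransfer.Cover

/-!
Odd characteristic: a Sylow subgroup acting on a single `SL₂` component.
-/

set_option autoImplicit false
set_option linter.unusedSectionVars false
set_option linter.style.haveILetI false

namespace CfsgLib.PushUp.OddTransfer

open CfsgLib.FFModules.SL2Pair CfsgLib.FFModules.MinimalParabolic
open CfsgLib.ClassicalLinear (upS upS_coe upS_injective mem_upperSL)
open scoped MatrixGroups Matrix

variable {H W : Type*} [Group H] [AddCommGroup W] [DistribMulAction H W]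
variable [Finite H] [Finite W] {p : ℕ} [Fact p.Prime] {T : Sylow p H} {M : Subgroup H}

/-- A Sylow subgroup of a single component: the fixed space of each nontrivial element is that of the
Sylow subgroup, of index the order of it, contains all commutators, and meets the fixed space of the
group trivially in the moved part. -/
theorem sylow_facts (h : Base p T M W) (hp2 : p ≠ 2) (htype : IsSL2Comp p (⊤ : Subgroup H) W) :
    (∀ t ∈ (T : Subgroup H), t ≠ 1 → ∀ v : W, t • v = v → v ∈ fixedSub (T : Subgroup H)) ∧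
    moves (T : Subgroup H) W ≤ fixedSub (T : Subgroup H) ∧
    Nat.card W = Nat.card (T : Subgroup H) * Nat.card (fixedSub (T : Subgroup H) : AddSubgroup W) ∧
    moves (T : Subgroup H) W ⊓ fixedSub (⊤ : Subgroup H) = ⊥ := by
  have hbot : moves (T : Subgroup H) W ⊓ fixedSub (⊤ : Subgroup H) = ⊥ := by
    refine (AddSubgroup.eq_bot_iff_forall _).2 fun v hv => eq_zero_of_moves_of_fixed h.exponent hp2 htype ?_ hv.2
    refine AddSubgroup.closure_mono ?_ hv.1
    rintro x ⟨a, -, w, e⟩
    exact ⟨a, Subgroup.mem_top a, w, e⟩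
  obtain ⟨F, hF, hF', n, ρ, ψ, hn, hcard, hψ, hker, heq⟩ := htype
  haveI := charP_of_card (p := p) hcard
  let r : H →* SL(2, F) := ρ.toMonoidHom.comp (Subgroup.topEquiv (G := H)).symm.toMonoidHom
  have hrb : Function.Bijective r := ρ.bijective.comp (Subgroup.topEquiv (G := H)).symm.bijective
  obtain ⟨k, hk⟩ := CfsgLib.ClassicalLinear.exists_conj_upperSL (F := F) p (T.mapSurjective (f := r) hrb.2)
  set K := ((k⁻¹ : SL(2, F)) : Matrix (Fin 2) (Fin 2) F) with hK
  -- coordinates adapted to `T`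
  let φ : W →+ (Fin 2 → F) := (Matrix.mulVecLin K).toAddMonoidHom.comp ψ
  have hφe : ∀ v, φ v = K *ᵥ ψ v := fun v => rfl
  have hφs : Function.Surjective φ := fun w => by
    obtain ⟨v, hv⟩ := hψ ((k : Matrix (Fin 2) (Fin 2) F) *ᵥ w)
    refine ⟨v, ?_⟩
    rw [hφe, hv, Matrix.mulVec_mulVec, hK, ← Matrix.SpecialLinearGroup.coe_mul, inv_mul_cancel,
      Matrix.SpecialLinearGroup.coe_one, Matrix.one_mulVec]
  have hφk : ∀ v, φ v = 0 → v ∈ fixedSub (⊤ : Subgroup H) := fun v e => by
    refine (hker v).1 ?_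
    have := congrArg (fun w => (k : Matrix (Fin 2) (Fin 2) F) *ᵥ w) e
    simpa only [hφe, hK, Matrix.mulVec_mulVec, ← Matrix.SpecialLinearGroup.coe_mul, mul_inv_cancel,
      Matrix.SpecialLinearGroup.coe_one, Matrix.one_mulVec, Matrix.mulVec_zero] using this
  have hmem : ∀ g : H, g ∈ (T : Subgroup H) ↔ k⁻¹ * r g * k ∈ CfsgLib.ClassicalLinear.upperSL := fun g => by
    refine Iff.trans ?_ (hk (r g))
    show _ ↔ r g ∈ (T : Subgroup H).map r
    exact (Subgroup.mem_map_iff_mem hrb.1).symm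
  have hact : ∀ t : H, ∀ s : F, upS s = k⁻¹ * r t * k → ∀ v, φ (t • v) = φ v + ![s * φ v 1, 0] := by
    intro t s hs v
    have e : φ (t • v) = ((upS s : SL(2, F)) : Matrix (Fin 2) (Fin 2) F) *ᵥ φ v := by
      have h1 := heq ⟨t, Subgroup.mem_top t⟩ v
      rw [hφe, hφe, show t • v = ((⟨t, Subgroup.mem_top t⟩ : (⊤ : Subgroup H)) : H) • v from rfl, h1, hs,
        Matrix.mulVec_mulVec, Matrix.mulVec_mulVec, hK, ← Matrix.SpecialLinearGroup.coe_mul,
        ← Matrix.SpecialLinearGroup.coe_mul]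
      congr 2
      show k⁻¹ * r t = k⁻¹ * r t * k * k⁻¹
      group
    rw [e, upS_coe]
    funext a
    fin_cases a <;> simp [Matrix.mulVec, dotProduct, Fin.sum_univ_two]
  have hs : ∀ t ∈ (T : Subgroup H), ∃ s, upS s = k⁻¹ * r t * k := fun t ht => by
    obtain ⟨s, e⟩ := mem_upperSL.1 ((hmem t).1 ht)
    exact ⟨s, e⟩
  have hfix : ∀ v, v ∈ fixedSub (T : Subgroup H) ↔ φ v 1 = 0 := by
    intro v
    constructor
    · intro hv
      obtain ⟨t, ht⟩ := hrb.2 (k * upS 1 * k⁻¹)
      have e : upS (1 : F) = k⁻¹ * r t * k := by rw [ht]; group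
      have h1 := hact t 1 e v
      rw [hv t ((hmem t).2 (e ▸ mem_upperSL.2 ⟨1, rfl⟩)), left_eq_add] at h1
      simpa using congrFun h1 0
    · intro hv t ht
      obtain ⟨s, e⟩ := hs t ht
      refine sub_eq_zero.1 ?_
      have h1 : t • v - v ∈ moves (T : Subgroup H) W ⊓ fixedSub (⊤ : Subgroup H) :=
        ⟨sub_mem_moves ht v, hφk _ (by rw [map_sub, hact t s e, hv, add_sub_cancel_left]; simp)⟩
      rwa [hbot, AddSubgroup.mem_bot] at h1
  have hcT : Nat.card (T : Subgroup H) = Nat.card F := by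
    rw [← CfsgLib.ClassicalLinear.card_upperSL (F := F)]
    let c : H →* SL(2, F) := (MulAut.conj k⁻¹).toMonoidHom.comp r
    have hc : (T : Subgroup H).map c = CfsgLib.ClassicalLinear.upperSL := by
      refine le_antisymm ?_ fun g hg => ?_
      · rintro _ ⟨t, ht, rfl⟩
        have := (hmem t).1 ht
        simpa [c] using this
      · obtain ⟨t, ht⟩ := hrb.2 (k * g * k⁻¹)
        refine ⟨t, (hmem t).2 ?_, ?_⟩
        · rw [ht]; simpa [mul_assoc] using hg
        · simp [c, ht, mul_assoc]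
    rw [← hc, Subgroup.card_map_of_injective ((MulAut.conj k⁻¹).injective.comp hrb.1)]
  refine ⟨fun t ht ht1 v hv => (hfix v).2 ?_, moves_le_iff.2 fun t ht v => (hfix _).2 ?_, ?_, hbot⟩
  · obtain ⟨s, e⟩ := hs t ht
    have h1 := hact t s e v
    rw [hv, left_eq_add] at h1
    have h2 : s * φ v 1 = 0 := by simpa using congrFun h1 0
    refine (mul_eq_zero.1 h2).resolve_left fun h0 => ht1 (hrb.1 ?_)
    rw [map_one]
    have h3 : k⁻¹ * r t * k = 1 := by
      rw [← e, h0]
      exact Subtype.ext (by rw [upS_coe, Matrix.SpecialLinearGroup.coe_one]; exact Matrix.one_fin_two.symm)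
    calc r t = k * (k⁻¹ * r t * k) * k⁻¹ := by group
      _ = 1 := by rw [h3]; group
  · obtain ⟨s, e⟩ := hs t ht
    rw [map_sub, hact t s e v, add_sub_cancel_left]
    simp
  · let χ : W →+ F := (Pi.evalAddMonoidHom (fun _ : Fin 2 => F) 1).comp φ
    have hχ : Function.Surjective χ := fun a => by
      obtain ⟨v, hv⟩ := hφs ![0, a]
      exact ⟨v, by simp [χ, hv]⟩
    have hk : χ.ker = fixedSub (T : Subgroup H) := by
      ext v; rw [AddMonoidHom.mem_ker, hfix]; rfl
    rw [hcT, AddSubgroup.card_eq_card_quotient_mul_card_addSubgroup χ.ker,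
      Nat.card_congr (QuotientAddGroup.quotientKerEquivOfSurjective χ hχ).toEquiv, hk]

end CfsgLib.PushUp.OddTransfer
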